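import Mathlib

/-! Minimal index of `PSU₃(q)`: isotropic additive subgroups of `F_{q²}` have at most `q` elements (`iso_card`),
additive Hilbert 90 (`exists_sub_conj`). -/

set_option autoImplicit false

namespace Cfsg.Agent.U3M

variable {F : Type*} [Field F] {q : ℕ} [Fintype F]

theorem e0_q (hF : Fintype.card F = q ^ 2) : 2 ≤ q := by
  have := Fintype.one_lt_card (α := F)
  rw [hF] at this
  by_contra h
  have : q = 0 ∨ q = 1 := by omega
  rcases this with rfl | rfl <;> simp at this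

theorem e0_ne (hF : Fintype.card F = q ^ 2) {σ : F →+* F} (hq : ∀ x, σ x = x ^ q) : ∃ x, σ x ≠ x := by
  by_contra h
  push Not at h
  have h2 := e0_q hF
  obtain ⟨g, hg⟩ := IsCyclic.exists_ofOrder_eq_natCard (α := Fˣ)
  have h3 : g ^ (q - 1) = 1 := by
    have := h (g : F)
    rw [hq] at this
    apply Units.ext
    rw [Units.val_pow_eq_pow_val, Units.val_one]
    refine mul_right_cancel₀ g.ne_zero ?_
    rw [← pow_succ, Nat.sub_add_cancel (by omega), this, one_mul]
  have h4 := Nat.le_of_dvd (by omega) (orderOf_dvd_of_pow_eq_one h3)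
  rw [hg, Nat.card_units, Nat.card_eq_fintype_card, hF] at h4
  have : q ^ 2 ≤ q := by omega
  nlinarith

/-- additive Hilbert 90 -/
theorem exists_sub_conj (hF : Fintype.card F = q ^ 2) {σ : F →+* F} (hσ : ∀ x, σ (σ x) = x) (hq : ∀ x, σ x = x ^ q)
    {β : F} (hβ : β + σ β = 0) : ∃ c, c - σ c = β := by
  obtain ⟨x, hx⟩ := e0_ne hF hq
  have h1 : x - σ x ≠ 0 := fun e => hx (sub_eq_zero.1 e).symm
  have h2 : σ β = -β := eq_neg_of_add_eq_zero_right hβ
  refine ⟨x * β / (x - σ x), ?_⟩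
  have h3 : σ x - x ≠ 0 := fun e => hx (sub_eq_zero.1 e)
  rw [map_div₀, map_mul, map_sub, hσ, h2]
  field_simp
  ring

theorem iso_card (hF : Fintype.card F = q ^ 2) {σ : F →+* F} (hσ : ∀ x, σ (σ x) = x) (hq : ∀ x, σ x = x ^ q)
    (A W : AddSubgroup F) (hW : ∃ β, β + σ β = 0 ∧ β ∉ W) (h : ∀ a ∈ A, ∀ b ∈ A, a * σ b - b * σ a ∈ W) :
    Nat.card A ≤ q := by
  classical
  obtain ⟨β, h1, h2⟩ := hW
  obtain ⟨ψ, hψ⟩ := (AddChar.exists_apply_ne_zero (α := F ⧸ W) (a := (β : F ⧸ W))).2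
    (fun e => h2 ((QuotientAddGroup.eq_zero_iff β).1 e))
  let B : F → F →+ F ⧸ W := fun a => (QuotientAddGroup.mk' W).comp
    { toFun := fun b => a * σ b - b * σ a, map_zero' := by simp, map_add' := fun b c => by simp only [map_add]; ring }
  have hB : ∀ a b, B a b = ((a * σ b - b * σ a : F) : F ⧸ W) := fun _ _ => rfl
  let f : A → AddChar (F ⧸ A) ℂ := fun a => ψ.compAddMonoidHom (QuotientAddGroup.lift A (B a)
    fun b hb => (QuotientAddGroup.eq_zero_iff _).2 (h a a.2 b hb))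
  have hf : ∀ (a : A) (b : F), f a (b : F ⧸ A) = ψ ((a * σ b - b * σ a : F) : F ⧸ W) := fun _ _ => rfl
  have inj : Function.Injective f := fun a a' e => by
    by_contra hn
    have h3 : (a : F) - a' ≠ 0 := fun e' => hn (Subtype.ext (sub_eq_zero.1 e'))
    obtain ⟨c, hc⟩ := exists_sub_conj hF hσ hq h1
    have h4 : σ (a - a') ≠ 0 := (map_ne_zero σ).2 h3
    have h5 := congrArg (fun χ : AddChar (F ⧸ A) ℂ => χ ((σ c / σ (a - a') : F) : F ⧸ A)) e
    simp only [hf] at h5
    apply hψ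
    have h6 : (a : F) * σ (σ c / σ (a - a')) - σ c / σ (a - a') * σ a =
        β + (a' * σ (σ c / σ (a - a')) - σ c / σ (a - a') * σ a') := by
      rw [map_div₀, hσ, hσ, ← hc]
      rw [map_sub] at h4 ⊢
      field_simp
      ring
    rw [h6, QuotientAddGroup.mk_add, AddChar.map_add_eq_mul] at h5
    exact (mul_eq_right₀ (by
      intro e0
      have := AddChar.map_add_eq_mul ψ (↑((a' : F) * σ (σ c / σ (a - a')) - σ c / σ (a - a') * σ a'))
        (-↑((a' : F) * σ (σ c / σ (a - a')) - σ c / σ (a - a') * σ a'))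
      rw [add_neg_cancel, AddChar.map_zero_eq_one, e0, zero_mul] at this
      exact one_ne_zero this)).1 h5
  have h7 := Nat.card_le_card_of_injective f inj
  haveI := Fintype.ofFinite (F ⧸ A)
  rw [Nat.card_eq_fintype_card (α := AddChar (F ⧸ A) ℂ), AddChar.card_eq, ← Nat.card_eq_fintype_card] at h7
  have h8 := AddSubgroup.card_eq_card_quotient_mul_card_addSubgroup A
  rw [Nat.card_eq_fintype_card, hF] at h8
  by_contra h9
  push Not at h9
  nlinarith

end Cfsg.Agent.U3M
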