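import Cfsg.Agent.U3M.G
import Cfsg.Agent.U3M.E0

/-! Minimal index of `PSU₃(q)`: the index of a subgroup of the Borel subgroup not containing the transvections (`idx`). -/

set_option autoImplicit false
set_option linter.unusedSectionVars false

namespace Cfsg.Agent.U3M

open Subgroup MulAction Cfsg.Agent.Pres Cfsg.Agent.CI Matrix

theorem e_cyc {F : Type*} [Field F] [Fintype F] (M : Subgroup Fˣ) {n : ℕ} (h : ∀ x ∈ M, x ^ n = 1) : Nat.card M ∣ n := by
  obtain ⟨g, hg⟩ := IsCyclic.exists_ofOrder_eq_natCard (α := M)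
  rw [← hg]
  exact orderOf_dvd_of_pow_eq_one (Subtype.ext (h g g.2))

theorem e_free {F : Type*} [Field F] [Fintype F] (M : Subgroup Fˣ) (W : AddSubgroup F)
    (h : ∀ x ∈ M, ∀ w ∈ W, (x : F) * w ∈ W) : Nat.card M ∣ Nat.card W - 1 := by
  classical
  have e1 : (QuotientGroup.mk ⁻¹' ((QuotientGroup.mk : Fˣ → Fˣ ⧸ M) '' {x : Fˣ | (x : F) ∈ W})) =
      {x : Fˣ | (x : F) ∈ W} := by
    ext x
    refine ⟨fun ⟨y, hy, e⟩ => ?_, fun hx => ⟨x, hx, rfl⟩⟩
    have := h _ (QuotientGroup.eq.1 e) _ hy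
    rwa [← Units.val_mul, mul_right_comm, inv_mul_cancel, one_mul] at this
  have e2 := QuotientGroup.card_preimage_mk M ((QuotientGroup.mk : Fˣ → Fˣ ⧸ M) '' {x : Fˣ | (x : F) ∈ W})
  rw [e1] at e2
  have e3 : Nat.card {x : Fˣ | (x : F) ∈ W} = Nat.card W - 1 := by
    have : (Units.val '' {x : Fˣ | (x : F) ∈ W}) = (W : Set F) \ {0} := by
      ext x
      exact ⟨fun ⟨y, hy, e⟩ => e ▸ ⟨hy, y.ne_zero⟩, fun ⟨h1, h2⟩ => ⟨Units.mk0 x h2, h1, rfl⟩⟩
    rw [Nat.card_coe_set_eq, ← Set.ncard_image_of_injective _ Units.val_injective, this,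
      Set.ncard_sdiff_singleton_of_mem W.zero_mem]
    rfl
  exact e3 ▸ Dvd.intro _ e2.symm

theorem e_dvd {F : Type*} [Field F] [Fintype F] {q : ℕ} (hF : Fintype.card F = q ^ 2) (A : AddSubgroup F)
    (h : Nat.card A ≤ q) : Nat.card A ∣ q := by
  obtain ⟨p, hp⟩ := CharP.exists F
  obtain ⟨k, h1, h2⟩ := FiniteField.card F p
  have d1 : Nat.card A ∣ p ^ (k : ℕ) := h2 ▸ Nat.card_eq_fintype_card (α := F) ▸ A.card_addSubgroup_dvd_card
  have d2 : q ∣ p ^ (k : ℕ) := by rw [← h2, hF]; exact Dvd.intro_left _ (pow_succ q 1).symm |>.trans (by simp)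
  obtain ⟨i, -, e1⟩ := (Nat.dvd_prime_pow h1).1 d1
  obtain ⟨j, -, e2⟩ := (Nat.dvd_prime_pow h1).1 d2
  rw [e1, e2] at h ⊢
  exact pow_dvd_pow _ ((Nat.pow_le_pow_iff_right h1.one_lt).1 h)

variable {F : Type*} [Field F] {q : ℕ} [Fintype F] [hF : Fact (Fintype.card F = q ^ 2)]
  {σ : F →+* F} [hσ : Fact (∀ x, σ (σ x) = x)]

theorem idx (hq : ∀ x, σ x = x ^ q) {K : Subgroup (UG σ 3)} (hK : K ≤ B3 σ) (hZ : ¬ ZZ σ ≤ K) :
    q ^ 2 ∣ K.relIndex (B3 σ) ∨ ∃ i y, 0 < i ∧ (i + 1) ^ 2 ≤ q ∧ K.relIndex (B3 σ) * i = q * y * (q - 1) := by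
  classical
  have q2 := e0_q hF.out
  have ok0 : ∀ {b : F}, Ok3 σ 0 b ↔ b + σ b = 0 := by simp [Ok3]
  let W : AddSubgroup F :=
    { carrier := {b | Ok3 σ 0 b ∧ u3 σ 0 b ∈ K}
      zero_mem' := ⟨by simp [Ok3], u3_zero (σ := σ) ▸ one_mem K⟩
      add_mem' := fun {a b} ha hb => ⟨by simpa using ha.1.add hb.1, by
        simpa [u3_mul ha.1 hb.1] using mul_mem ha.2 hb.2⟩
      neg_mem' := fun {a} ha => by
        have e : σ a = -a := eq_neg_of_add_eq_zero_right (ok0.1 ha.1)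
        exact ⟨by simpa [e] using ha.1.neg, by simpa [u3_inv ha.1, e] using inv_mem ha.2⟩ }
  let T : AddSubgroup F :=
    { carrier := {b | b + σ b = 0}
      zero_mem' := by simp
      add_mem' := fun {a b} ha hb => by
        have ha' : a + σ a = 0 := ha
        have hb' : b + σ b = 0 := hb
        show a + b + σ (a + b) = 0
        rw [map_add]; linear_combination ha' + hb'
      neg_mem' := fun {a} ha => by
        have ha' : a + σ a = 0 := ha
        show -a + σ (-a) = 0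
        rw [map_neg]; linear_combination -ha' }
  obtain ⟨_, ⟨β, hβ, rfl⟩, hβ'⟩ := SetLike.not_le_iff_exists.1 hZ
  have bW : β ∉ W := fun h => hβ' h.2
  have cT : Nat.card T ≤ q := iso_card hF.out hσ.out hq T ⊥ ⟨β, ok0.1 hβ, fun e => bW (AddSubgroup.mem_bot.1 e ▸ W.zero_mem)⟩
    fun a ha b hb => by
      rw [AddSubgroup.mem_bot, eq_neg_of_add_eq_zero_right (show a + σ a = 0 from ha),
        eq_neg_of_add_eq_zero_right (show b + σ b = 0 from hb)]
      ring
  have cW : Nat.card W < q := lt_of_lt_of_le (Set.ncard_lt_ncard (s := (W : Set F)) (t := (T : Set F))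
    ⟨fun b hb => ok0.1 hb.1, fun h => bW (h (ok0.1 hβ))⟩) cT
  obtain ⟨w, hw⟩ := e_dvd hF.out W cW.le
  -- the unipotent part
  let α : (K ⊓ UU σ : Subgroup (UG σ 3)) →* Multiplicative F := MonoidHom.mk' (fun g => .ofAdd (g.1.1.1 0 1)) (by
    rintro ⟨_, h1, a, b, h, rfl⟩ ⟨_, h2, c, d, h', rfl⟩
    simp [u3_mul h h', u3_val h, u3_val h', u3_val (h.add h')])
  have hα : ∀ {a b} (h : Ok3 σ a b) (m : u3 σ a b ∈ K ⊓ UU σ), α ⟨_, m⟩ = .ofAdd a := fun h m => by
    simp [α, u3_val h]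
  have cA : Nat.card α.range ∣ q := e_dvd hF.out (Subgroup.toAddSubgroup' α.range)
    (iso_card hF.out hσ.out hq _ W ⟨β, ok0.1 hβ, bW⟩ (by
      rintro x ⟨⟨_, h1, a, b, h, rfl⟩, e⟩ y ⟨⟨_, h2, c, d, h', rfl⟩, e'⟩
      obtain rfl : a = x := (hα h _).symm.trans e
      obtain rfl : c = y := (hα h' _).symm.trans e'
      have k := ((h'.add h).add h'.neg).add h.neg
      have m := K.mul_mem (K.mul_mem (K.mul_mem h2 h1) (K.inv_mem h2)) (K.inv_mem h1)
      rw [u3_inv h, u3_inv h', u3_mul h' h, u3_mul (h'.add h) h'.neg, u3_mul ((h'.add h).add h'.neg) h.neg] at m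
      have : a * σ c - c * σ a = d + b - c * σ a + σ d - (c + a) * σ (-c) + σ b - (c + a + -c) * σ (-a) := by
        rw [Ok3] at h h'
        rw [map_neg, map_neg]
        linear_combination -h - h'
      rw [← this, show c + a + -c + -a = 0 by ring] at k m
      exact ⟨k, m⟩))
  have cK : Nat.card α.ker = Nat.card W := by
    refine (Nat.card_congr (Equiv.ofBijective (fun b : W => (⟨⟨u3 σ 0 b, b.2.2, 0, b, b.2.1, rfl⟩, hα b.2.1 _⟩ : α.ker))
      ⟨fun b c e => Subtype.ext (u3_inj b.2.1 c.2.1 (congrArg (fun g : α.ker => g.1.1) e)).2, ?_⟩)).symm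
    rintro ⟨⟨_, h1, a, b, h, rfl⟩, e⟩
    obtain rfl : a = 0 := (hα h _).symm.trans e
    exact ⟨⟨b, h, h1⟩, rfl⟩
  have cS := α.ker.card_mul_index
  rw [index_ker, cK] at cS
  obtain ⟨a', ha'⟩ := cA
  -- the torus part
  let φ : K →* Fˣ := MonoidHom.toHomUnits
    { toFun := fun g => ee g.1, map_one' := by simp [ee], map_mul' := fun g h => ee_mul (hK h.2) }
  have hφ : ∀ g : K, (φ g : F) = ee g.1 := fun _ => rfl
  have kφ : φ.ker = (K ⊓ UU σ).subgroupOf K := by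
    ext g
    refine ⟨fun h => ⟨g.2, ?_⟩, fun h => Units.ext (ee_UU h.2)⟩
    obtain ⟨a, b, l, ok, e⟩ := mem_B3.1 (hK g.2)
    have : l = 1 := Units.ext (by rw [← ee_uh ok l, ← e, ← hφ, MonoidHom.mem_ker.1 h])
    exact ⟨a, b, ok, by rw [this, map_one, mul_one] at e; exact e⟩
  have cK' := φ.ker.card_mul_index
  rw [index_ker, kφ, Nat.card_congr (subgroupOfEquivOfLe inf_le_left).toEquiv, ← cS] at cK'
  obtain ⟨c', hc'⟩ := φ.range.card_subgroup_dvd_card
  rw [Nat.card_units, Nat.card_eq_fintype_card, hF.out] at hc'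
  have cB := (K.subgroupOf (B3 σ)).card_mul_index
  rw [cardB' hq, Nat.card_congr (subgroupOfEquivOfLe hK).toEquiv, ← cK', hc'] at cB
  have hn : K.relIndex (B3 σ) = q * (w * a' * c') := by
    have p1 : 0 < Nat.card W * Nat.card α.range * Nat.card φ.range :=
      Nat.mul_pos (Nat.mul_pos Nat.card_pos Nat.card_pos) Nat.card_pos
    refine Nat.eq_of_mul_eq_mul_left p1 (cB.trans ?_)
    calc q ^ 3 * (Nat.card φ.range * c') = q * q * q * (Nat.card φ.range * c') := by ring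
      _ = q * (Nat.card W * w) * (Nat.card α.range * a') * (Nat.card φ.range * c') := by rw [← hw, ← ha']
      _ = _ := by ring
  rw [hn]
  by_cases h1 : Nat.card W = 1
  · rw [h1, one_mul] at hw
    exact Or.inl ⟨a' * c', by rw [← hw]; ring⟩
  let ν : φ.range →* Fˣ := (powMonoidHom (q + 1)).comp φ.range.subtype
  have hν : ∀ l : φ.range, (ν l : F) = (l : Fˣ) * σ (l : Fˣ) := fun l => by simp [ν, hq, pow_succ']
  have d1 : Nat.card ν.range ∣ Nat.card W - 1 := e_free _ W (by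
    rintro _ ⟨⟨_, g, rfl⟩, rfl⟩ b hb
    obtain ⟨a, c, l, ok, e⟩ := mem_B3.1 (hK g.2)
    have el : (φ g : F) = l := by rw [hφ, e, ee_uh ok]
    have k := hb.1.conj l
    have m := mul_mem (mul_mem g.2 hb.2) (inv_mem g.2)
    rw [mul_zero] at k
    have e2 := h3_conj hb.1 l
    rw [mul_zero] at e2
    rw [e, show u3 σ a c * h3 σ l * u3 σ 0 b * (u3 σ a c * h3 σ l)⁻¹ =
      u3 σ a c * (h3 σ l * u3 σ 0 b * (h3 σ l)⁻¹) * (u3 σ a c)⁻¹ by group, e2,
      commutatorElement_eq_one_iff_mul_comm.1 (ZZ_comm ⟨a, c, ok, rfl⟩ ⟨_, k, rfl⟩), mul_inv_cancel_right] at m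
    rw [hν]
    simp only [el]
    exact ⟨k, m⟩)
  have e1 : q ^ 2 - 1 = (q + 1) * (q - 1) := by simpa using Nat.sq_sub_sq q 1
  have d2 : Nat.card ν.range ∣ q - 1 := e_cyc _ (by
    rintro _ ⟨l, rfl⟩
    show ((l : Fˣ) ^ (q + 1)) ^ (q - 1) = 1
    rw [← pow_mul, ← e1, ← hF.out, ← Nat.card_eq_fintype_card, ← Nat.card_units, pow_card_eq_one'])
  have d3 : Nat.card ν.ker ∣ q + 1 := by
    rw [← card_map_of_injective φ.range.subtype_injective]
    refine e_cyc _ ?_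
    rintro _ ⟨l, hl, rfl⟩
    exact hl
  obtain ⟨k', hk'⟩ := d3
  have cν := ν.ker.card_mul_index
  rw [index_ker] at cν
  have pW : 0 < Nat.card W := Nat.card_pos
  have pi : 0 < Nat.card ν.range := Nat.card_pos
  have pk : 0 < Nat.card ν.ker := Nat.card_pos
  refine Or.inr ⟨Nat.card ν.range, w * a' * k', pi, ?_, ?_⟩
  · generalize Nat.card ν.range = i at *
    generalize Nat.card W = z at *
    have w2 : 2 ≤ w := by
      by_contra h
      have : w = 0 ∨ w = 1 := by omega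
      rcases this with rfl | rfl <;> omega
    obtain ⟨z, rfl⟩ : ∃ z', z = z' + 1 := ⟨z - 1, by omega⟩
    obtain ⟨w, rfl⟩ : ∃ w', w = w' + 1 := ⟨w - 1, by omega⟩
    rw [hw, show (z + 1) * (w + 1) - 1 = z * (w + 1) + w by rw [add_mul, one_mul, ← add_assoc, Nat.add_sub_cancel]] at d2
    rw [Nat.add_sub_cancel] at d1
    have l1 := Nat.le_of_dvd (by omega) d1
    have l2 := Nat.le_of_dvd (by omega) ((Nat.dvd_add_right (d1.mul_right _)).1 d2)
    rw [hw, sq]
    exact Nat.mul_le_mul (by omega) (by omega)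
  · have : c' * Nat.card ν.range = k' * (q - 1) := by
      refine Nat.eq_of_mul_eq_mul_left pk ?_
      rw [← mul_assoc _ k', ← hk', ← e1, hc', ← cν]
      ring
    calc q * (w * a' * c') * Nat.card ν.range = q * (w * a') * (c' * Nat.card ν.range) := by ring
      _ = _ := by rw [this]; ring

end Cfsg.Agent.U3M
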