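import Cfsg.Agent.U3M.A
import Cfsg.Agent.CharDeep.Clifford
import Cfsg.Agent.Perm.Orbital

/-! Subgroups of small index in doubly transitive groups; counting elements with fixed points. -/

set_option autoImplicit false

namespace Cfsg.Agent.U3M

open Subgroup MulAction Cfsg.Agent.Char Cfsg.Agent.CharDeep Cfsg.Agent.Perm

theorem trans' {G Ω : Type*} [Group G] [Finite G] [MulAction G Ω] [Finite Ω]
    (h2 : IsMultiplyPretransitive G Ω 2) (H : Subgroup G) (h : H.index < Nat.card Ω) : IsPretransitive H Ω := by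
  by_contra hnt
  classical
  haveI := Fintype.ofFinite G
  haveI := Fintype.ofFinite Ω
  haveI : Nontrivial Ω := by
    by_contra h
    rw [not_nontrivial_iff_subsingleton] at h
    exact hnt ⟨fun x y => ⟨1, Subsingleton.elim _ _⟩⟩
  obtain ⟨a, b, hab⟩ := exists_pair_ne Ω
  haveI : IsPretransitive G Ω := ⟨fun x y => by
    obtain ⟨x', hx⟩ := exists_ne x
    obtain ⟨y', hy⟩ := exists_ne y
    obtain ⟨g, hg, -⟩ := exists_smul_two h2 hx.symm hy.symm
    exact ⟨g, hg⟩⟩
  have hrk : Nat.card (orbitRel.Quotient (stabilizer G a) Ω) = 2 := by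
    rw [Nat.card_eq_two_iff]
    refine ⟨Quotient.mk'' a, Quotient.mk'' b, fun h => ?_, ?_⟩
    · obtain ⟨g, hg⟩ := Quotient.exact' h.symm
      exact hab (g.2.symm.trans hg)
    · rw [Set.eq_univ_iff_forall]
      intro q
      obtain ⟨c, rfl⟩ := Quotient.mk''_surjective q
      by_cases hc : c = a
      · left; rw [hc]
      · right
        obtain ⟨g, h1, h3⟩ := exists_smul_two h2 hab (Ne.symm hc)
        exact Quotient.sound' ⟨⟨g, h1⟩, h3⟩
  have hπ : IsCharacter G (pch G Ω) := character_permRep (G := G) (Ω := Ω) ▸ isCharacter_character _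
  have h11 : classInner (fun _ : G => (1 : ℂ)) (fun _ => 1) = 1 := IsIrrCharacter.classInner_self isIrrCharacter_one
  have hπ1 := inner_pch_one (G := G) (Ω := Ω)
  have h1π : classInner (fun _ : G => (1 : ℂ)) (pch G Ω) = 1 := by
    rw [IsCharacter.classInner_comm isCharacter_one hπ, hπ1]
  have hn : pch G Ω 1 = Nat.card Ω := by simp [pch]
  have hn2 : 2 ≤ Nat.card Ω := Finite.one_lt_card
  have hχ : IsIrrCharacter G (pch G Ω - fun _ => 1) := by
    refine IsGeneralizedCharacter.isIrrCharacter_of_pos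
      (IsGeneralizedCharacter.sub (IsCharacter.isGeneralizedCharacter hπ) isGeneralizedCharacter_one) ?_ ?_
    · rw [classInner_sub_left, classInner_sub_right, classInner_sub_right, inner_pch_self a, hrk, hπ1, h1π, h11]
      norm_num
    · rw [Pi.sub_apply, hn]; simp; exact Fintype.card_pos
  obtain ⟨m, hm, hψ⟩ := IsCharacter.exists_nat_coeff (isCharacter_indFun H (isCharacter_one (G := H)))
  set k := Nat.card (orbitRel.Quotient H Ω) with hk
  have hm1 : m (irrOne G) = 1 := by
    have := hm (irrOne G)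
    rw [classInner_indFun_left _ _ (IsIrrCharacter.isClassFunction (irrOne G).2)] at this
    simp only [irrOne_apply] at this
    rw [IsIrrCharacter.classInner_self isIrrCharacter_one] at this
    exact_mod_cast this.symm
  have hm2 : m ⟨_, hχ⟩ + 1 = k := by
    have := hm ⟨_, hχ⟩
    rw [classInner_indFun_left _ _ (IsIrrCharacter.isClassFunction hχ)] at this
    have h3 : (fun h : H => (pch G Ω - fun _ => 1 : G → ℂ) h) = (fun h : H => (Nat.card (fixedBy Ω h) : ℂ)) - fun _ => 1 := rfl
    rw [h3, classInner_sub_right, ← conj_classInner, classInner_card_fixedBy_one,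
      IsIrrCharacter.classInner_self isIrrCharacter_one, map_natCast] at this
    have h4 : ((m ⟨_, hχ⟩ + 1 : ℕ) : ℂ) = k := by push_cast; rw [← this]; ring
    exact_mod_cast h4
  choose d hd0 hd using fun φ : IrrCharacter G => IsIrrCharacter.exists_pos_apply_one φ.2
  have hsum : ∑ φ, m φ * d φ = H.index := by
    have := congrFun hψ 1
    rw [indFun_one, Finset.sum_apply] at this
    simp only [Pi.smul_apply, smul_eq_mul, hd, mul_one] at this
    exact_mod_cast this.symm
  have hne : (⟨_, hχ⟩ : IrrCharacter G) ≠ irrOne G := by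
    intro h
    have h3 : (pch G Ω - fun _ => 1) = fun _ => 1 := congrArg Subtype.val h
    have := congrArg (fun θ => classInner θ (fun _ : G => (1 : ℂ))) h3
    simp only [classInner_sub_left, hπ1, h11] at this
    norm_num at this
  have hle := Finset.sum_le_sum_of_subset (f := fun φ => m φ * d φ)
    (Finset.subset_univ ({⟨_, hχ⟩, irrOne G} : Finset (IrrCharacter G)))
  rw [Finset.sum_pair hne, hsum, hm1] at hle
  have hdχ : d ⟨_, hχ⟩ + 1 = Nat.card Ω := by
    have := hd ⟨_, hχ⟩
    simp only [Pi.sub_apply, hn] at this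
    have h4 : ((d ⟨_, hχ⟩ + 1 : ℕ) : ℂ) = Nat.card Ω := by push_cast; rw [← this]; ring
    exact_mod_cast h4
  have hk1 : k ≠ 1 := fun h => hnt ((pretransitive_iff_subsingleton_quotient H Ω).2 (Nat.card_eq_one_iff_unique.1 h).1)
  have := hd0 (irrOne G)
  have hk0 : k ≠ 0 := by omega
  have : 1 * d ⟨_, hχ⟩ ≤ m ⟨_, hχ⟩ * d ⟨_, hχ⟩ := Nat.mul_le_mul_right _ (by omega)
  omega

theorem cnt1 {G Ω : Type*} [Group G] [Finite G] [MulAction G Ω] [Finite Ω] (H : Subgroup G) (h : IsPretransitive H Ω)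
    (x : Ω) (j : ℕ) [Fintype G] [DecidablePred fun h : G => h ∈ H ∧ Set.ncard {y : Ω | h • y = y} ≤ j] :
    Nat.card Ω * ef Ω (H ⊓ stabilizer G x) j =
      ∑ g : G, if g ∈ H ∧ Set.ncard {y : Ω | g • y = y} ≤ j then Set.ncard {y : Ω | g • y = y} else 0 := by
  classical
  haveI := Fintype.ofFinite Ω
  have e1 : ∀ y : Ω, ef Ω (H ⊓ stabilizer G x) j = ef Ω (H ⊓ stabilizer G y) j := fun y => by
    obtain ⟨c, rfl⟩ := h.exists_smul_eq x y
    have k : ∀ g : G, Set.ncard {y : Ω | ((c : G) * g * (c : G)⁻¹) • y = y} = Set.ncard {y : Ω | g • y = y} := fun g => by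
      rw [← Set.ncard_image_of_injective _ (MulAction.injective (c : G)⁻¹)]
      congr 1
      ext y
      refine ⟨?_, fun hy => ⟨(c : G) • y, ?_, inv_smul_smul _ _⟩⟩
      · rintro ⟨z, hz, rfl⟩
        simpa [mul_smul, smul_eq_iff_eq_inv_smul (c : G)] using hz
      · simpa [mul_smul] using hy
    refine Set.ncard_congr (fun g _ => (c : G) * g * (c : G)⁻¹) (fun g hg => ⟨⟨?_, ?_⟩, (k g).trans_le hg.2⟩)
      (fun a b _ _ e => by simpa using e) fun g hg => ⟨(c : G)⁻¹ * g * c, ⟨⟨?_, ?_⟩, ?_⟩, by group⟩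
    · exact H.mul_mem (H.mul_mem c.2 hg.1.1) (H.inv_mem c.2)
    · have : g • x = x := hg.1.2
      show _ • (c : G) • x = (c : G) • x
      simp [mul_smul, this]
    · exact H.mul_mem (H.mul_mem (H.inv_mem c.2) hg.1.1) c.2
    · have : g • (c : G) • x = (c : G) • x := hg.1.2
      show _ • x = x
      simp [mul_smul, this]
    · rw [← k]; simpa [mul_assoc] using hg.2
  have e2 : ∀ y : Ω, ef Ω (H ⊓ stabilizer G y) j =
      ∑ g : G, if (g ∈ H ∧ Set.ncard {y : Ω | g • y = y} ≤ j) ∧ g • y = y then 1 else 0 := fun y => by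
    rw [Finset.sum_boole, ef, ← Set.ncard_coe_finset]
    congr 1
    ext g
    simp [mem_stabilizer_iff, and_right_comm]
  rw [Nat.card_eq_fintype_card, ← Finset.card_univ, ← smul_eq_mul, ← Finset.sum_const,
    Finset.sum_congr rfl fun y _ => (e1 y).trans (e2 y), Finset.sum_comm]
  refine Finset.sum_congr rfl fun g _ => ?_
  split_ifs with k
  · simp only [k, true_and, Finset.sum_boole, Nat.cast_id]
    rw [← Set.ncard_coe_finset]
    congr 1
    ext y; simp
  · simp [k]

theorem cnt' {G Ω : Type*} [Group G] [Finite G] [MulAction G Ω] [Finite Ω] (H : Subgroup G) (h : IsPretransitive H Ω)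
    (x : Ω) : Nat.card Ω * (ef Ω (H ⊓ stabilizer G x) 1 + ef Ω (H ⊓ stabilizer G x) 2) ≤ 2 * nd Ω H := by
  classical
  haveI := Fintype.ofFinite G
  have e : nd Ω H = ∑ g : G, if g ∈ H ∧ ∃ y : Ω, g • y = y then 1 else 0 := by
    rw [Finset.sum_boole, nd, ← Set.ncard_coe_finset]
    congr 1
    ext g; simp
  rw [mul_add, cnt1 H h, cnt1 H h, e, Finset.mul_sum, ← Finset.sum_add_distrib]
  refine Finset.sum_le_sum fun g _ => ?_
  by_cases k : g ∈ H ∧ ∃ y : Ω, g • y = y
  · rw [if_pos k]
    split_ifs <;> omega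
  · rw [if_neg k]
    by_cases hg : g ∈ H
    · have : {y : Ω | g • y = y} = ∅ := Set.eq_empty_of_forall_notMem fun y hy => k ⟨hg, y, hy⟩
      simp [this]
    · simp [hg]

end Cfsg.Agent.U3M
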