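import Cfsg.Agent.U3M.A

/-! Minimal index of `PSU₃(q)`, U2: the congruence `Tor.cong` (helper4 for helper25). -/

set_option autoImplicit false

namespace Cfsg.Agent.U3M

open Subgroup MulAction

theorem d_cen {G : Type*} [Group G] [Finite G] {p : ℕ} (hp : p.Prime) (h : p ∣ Nat.card G) :
    ∃ z : G, orderOf z = p ∧ ¬ p ∣ (centralizer {z} : Subgroup G).index := by
  have := Fact.mk hp
  obtain ⟨P⟩ := (inferInstance : Nonempty (Sylow p G))
  have : Nontrivial P := (Subgroup.nontrivial_iff_ne_bot _).2 (P.ne_bot_of_dvd_card h)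
  have : Nontrivial (center P) := P.isPGroup'.center_nontrivial
  obtain ⟨n, hn, e⟩ := (P.isPGroup'.to_subgroup (center P)).nontrivial_iff_card.1 inferInstance
  obtain ⟨z, hz⟩ := exists_prime_orderOf_dvd_card' (G := center P) p (e ▸ dvd_pow_self p hn.ne')
  refine ⟨z.1.1, (Subgroup.orderOf_coe _).trans ((Subgroup.orderOf_coe _).trans hz), fun d => P.not_dvd_index (d.trans (index_dvd_of_le fun y hy => ?_))⟩
  exact mem_centralizer_singleton_iff.2 (congrArg Subtype.val (mem_center_iff.1 z.2 ⟨y, hy⟩))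

theorem d_mul {G : Type*} [Group G] {A B : Subgroup G} (h : A ≤ B) : Nat.card A * A.relIndex B = Nat.card B := by
  rw [← Nat.card_congr (subgroupOfEquivOfLe h).toEquiv]; exact card_mul_index _

/-- The union of the `H`-conjugates of `(H ⊓ C(t)) \ Z`. -/
def dU {G : Type*} [Group G] (H : Subgroup G) (t : G) : Set G :=
  {y | ∃ h ∈ H, ∃ x ∈ H ⊓ centralizer {t}, x ∉ center G ∧ y = h * x * h⁻¹}

variable {G Ω : Type*} [Group G] [Finite G] [MulAction G Ω] {d N : ℕ} (T : Tor G Ω d N) {H : Subgroup G} {t t' : G}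
include T

omit [Finite G] in
theorem Tor.dkey (p : (orderOf t).Prime) (o : orderOf t ∣ N) (p' : (orderOf t').Prime) (o' : orderOf t' ∣ N) {g x : G}
    (hg : g ∈ centralizer {t}) (gz : g ∉ center G) (e : x * g * x⁻¹ ∈ centralizer {t'}) (y : G) :
    y ∈ centralizer {t} ↔ x * y * x⁻¹ ∈ centralizer {t'} := by
  have z : x * g * x⁻¹ ∉ center G := fun h => gz (by
    simpa [mul_assoc] using (inferInstance : (center G).Normal).conj_mem _ h x⁻¹)
  rw [← (T.ti t p o g hg gz).1, ← (T.ti t' p' o' _ e z).1, mem_centralizer_singleton_iff, mem_centralizer_singleton_iff,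
    conj_mul, conj_mul, mul_left_inj, mul_right_inj]

theorem Tor.dcnt (p : (orderOf t).Prime) (o : orderOf t ∣ N) (hZ : center G ≤ H) :
    Nat.card H * (Nat.card ↥(H ⊓ centralizer {t}) - d) ≤
      Nat.card ↥(H ⊓ normalizer ((centralizer {t} : Subgroup G) : Set G)) * (dU H t).ncard := by
  classical
  have c1 : Nat.card ↥(((H ⊓ centralizer {t} : Subgroup G) : Set G) \ (center G : Set G)) =
      Nat.card ↥(H ⊓ centralizer {t}) - d := by
    have zA : center G ≤ H ⊓ centralizer {t} := fun z hz =>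
      ⟨hZ hz, mem_centralizer_singleton_iff.2 (mem_center_iff.1 hz t).symm⟩
    rw [Nat.card_coe_set_eq, Set.ncard_sdiff zA, ← T.cz]
    rfl
  choose! w hw using fun y (hy : y ∈ dU H t) => hy
  have m : ∀ a : H × ↥(((H ⊓ centralizer {t} : Subgroup G) : Set G) \ (center G : Set G)),
      a.1.1 * a.2.1 * a.1.1⁻¹ ∈ dU H t := fun a => ⟨a.1, a.1.2, a.2, a.2.2.1, a.2.2.2, rfl⟩
  rw [← c1, ← Nat.card_prod, ← Nat.card_coe_set_eq, ← Nat.card_prod]
  refine Nat.card_le_card_of_injective (fun a => (⟨(w (a.1.1 * a.2.1 * a.1.1⁻¹))⁻¹ * a.1, ?_⟩, ⟨_, m a⟩)) ?_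
  · obtain ⟨h1, x, hx, -, e⟩ := hw _ (m a)
    refine ⟨H.mul_mem (H.inv_mem h1) a.1.2, mem_normalizer_iff.2 (T.dkey p o p o a.2.2.1.2 a.2.2.2 ?_)⟩
    generalize w (a.1.1 * a.2.1 * a.1.1⁻¹) = v at *
    rw [show v⁻¹ * a.1.1 * a.2.1 * (v⁻¹ * a.1.1)⁻¹ = v⁻¹ * (a.1.1 * a.2.1 * a.1.1⁻¹) * v by group, e]
    simpa [mul_assoc] using hx.2
  · intro a b e
    simp only [Prod.mk.injEq, Subtype.mk.injEq] at e
    obtain ⟨e1, e2⟩ := e
    rw [e2, mul_right_inj] at e1
    rw [e1, mul_left_inj, mul_right_inj] at e2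
    exact Prod.ext (Subtype.ext e1) (Subtype.ext e2)

omit [Finite G] in
theorem Tor.dsub (p : (orderOf t).Prime) (o : orderOf t ∣ N) : dU H t ⊆ (H : Set G) \ {h : G | h ∈ H ∧ ∃ y : Ω, h • y = y} := by
  rintro _ ⟨h, hh, x, hx, xz, rfl⟩
  refine ⟨mul_mem (mul_mem hh hx.1) (inv_mem hh), fun ⟨_, y, e⟩ => (T.ti t p o x hx.2 xz).2 (h⁻¹ • y) ?_⟩
  rw [mul_smul, mul_smul, smul_eq_iff_eq_inv_smul] at e
  exact e

omit T in
theorem d_le {S : Set G} (h : S ⊆ (H : Set G) \ {h : G | h ∈ H ∧ ∃ y : Ω, h • y = y}) : S.ncard + nd Ω H ≤ Nat.card H := by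
  have := Set.ncard_le_ncard h
  rw [Set.ncard_sdiff (fun _ h => h.1)] at this
  have e : nd Ω H ≤ (H : Set G).ncard := Set.ncard_le_ncard fun _ h => h.1
  change _ ≤ (H : Set G).ncard
  unfold nd at *
  omega

omit [Finite G] in
theorem Tor.dnrm (p : (orderOf t).Prime) (o : orderOf t ∣ N) (M : Subgroup G)
    (hM : M ≤ normalizer ((centralizer {t} : Subgroup G) : Set G)) : (centralizer {t} : Subgroup G).relIndex M ∣ 3 := by
  rw [← relIndex_subgroupOf hM]
  exact (relIndex_dvd_index_of_normal _ _).trans (T.nrm t p o)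

theorem Tor.done (p : (orderOf t).Prime) (o : orderOf t ∣ N) (hZ : center G ≤ H) (ht : t ∈ H)
    (h1 : Nat.card H < 7 * nd Ω H) : ∃ a, a ∣ N ∧ orderOf t ∣ a ∧ Nat.card ↥(H ⊓ centralizer {t}) = d * a ∧
      Nat.card ↥(H ⊓ normalizer ((centralizer {t} : Subgroup G) : Set G)) = 3 * (d * a) ∧
      2 * Nat.card H ≤ 7 * (dU H t).ncard := by
  have d0 : 0 < d := T.cz ▸ Nat.card_pos
  obtain ⟨a, ha⟩ : d ∣ Nat.card ↥(H ⊓ centralizer {t}) := T.cz ▸ card_dvd_of_le fun z hz =>
    ⟨hZ hz, mem_centralizer_singleton_iff.2 (mem_center_iff.1 hz t).symm⟩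
  have aN : a ∣ N := Nat.dvd_of_mul_dvd_mul_left d0 (ha ▸ (card_dvd_of_le inf_le_right).trans (T.card t p o))
  have ta : orderOf t ∣ a := (T.cop.coprime_dvd_right o).symm.dvd_of_dvd_mul_left
    (ha ▸ (H ⊓ centralizer {t}).orderOf_dvd_natCard ⟨ht, mem_centralizer_singleton_iff.2 rfl⟩)
  have a0 : 0 < a := Nat.pos_of_mul_pos_left (ha ▸ Nat.card_pos)
  have a7 : 7 ≤ a := (T.big _ p o).trans (Nat.le_of_dvd a0 ta)
  have c := T.dcnt p o hZ
  have l := d_le (T.dsub (H := H) p o)
  have m := d_mul (inf_le_inf_left H (le_normalizer (H := centralizer {t})))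
  have e : (H ⊓ centralizer {t}).relIndex (H ⊓ normalizer ((centralizer {t} : Subgroup G) : Set G)) ∣ 3 := by
    have : (H ⊓ centralizer {t}).subgroupOf (H ⊓ normalizer ((centralizer {t} : Subgroup G) : Set G)) =
        (centralizer {t}).subgroupOf _ := Subgroup.ext fun x => ⟨fun h => h.2, fun h => ⟨x.2.1, h⟩⟩
    rw [relIndex, this]
    exact T.dnrm p o (H ⊓ _) inf_le_right
  obtain ⟨b, rfl⟩ := Nat.exists_eq_add_of_le' a0
  rw [← m, ha, show d * (b + 1) - d = d * b by rw [mul_add, mul_one, Nat.add_sub_cancel]] at c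
  rw [ha] at m
  generalize (dU H t).ncard = u at *
  generalize nd Ω H = k at *
  generalize Nat.card H = n at *
  rcases (Nat.dvd_prime Nat.prime_three).1 e with e | e <;> rw [e] at c m
  · have : n * b ≤ (b + 1) * u := Nat.le_of_mul_le_mul_left (by nlinarith) d0
    nlinarith
  · have : n * b ≤ 3 * (b + 1) * u := Nat.le_of_mul_le_mul_left (by nlinarith) d0
    refine ⟨_, aN, ta, ha, by rw [← m, mul_comm], ?_⟩
    by_contra x
    nlinarith

theorem Tor.dmod (p : (orderOf t).Prime) (o : orderOf t ∣ N) (hZ : center G ≤ H)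
    (hA : Nat.card ↥(H ⊓ centralizer {t}) = d * N) :
    (normalizer ((centralizer {t} : Subgroup G) : Set G)).relIndex H ≡ 1 [MOD N] := by
  classical
  have d0 : 0 < d := T.cz ▸ Nat.card_pos
  have zA : center G ≤ H ⊓ centralizer {t} := fun z hz =>
    ⟨hZ hz, mem_centralizer_singleton_iff.2 (mem_center_iff.1 hz t).symm⟩
  have iN : (center G).relIndex (H ⊓ centralizer {t}) = N :=
    Nat.eq_of_mul_eq_mul_left d0 (by rw [← hA, ← d_mul zA, T.cz])
  have c3 : Nat.Coprime 3 N := (Nat.Prime.coprime_iff_not_dvd Nat.prime_three).2 fun h =>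
    absurd (T.big 3 Nat.prime_three h) (by decide)
  set M := normalizer ((centralizer {t} : Subgroup G) : Set G) with hM
  set A := (H ⊓ centralizer {t}).subgroupOf H with hA'
  have := Fintype.ofFinite A
  have := Fintype.ofFinite (H ⧸ M.subgroupOf H)
  have := Fintype.ofFinite (Quotient (orbitRel A (H ⧸ M.subgroupOf H)))
  have B := sum_card_fixedBy_eq_card_orbits_mul_card_group A (H ⧸ M.subgroupOf H)
  have fx : ∀ (g : A) (x : H), g • (x : H ⧸ M.subgroupOf H) = x ↔ (x : G)⁻¹ * g.1.1 * (x : G)⁻¹⁻¹ ∈ M := fun g x => by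
    rw [eq_comm]
    change (x : H ⧸ M.subgroupOf H) = ((g.1 * x : H) : H ⧸ M.subgroupOf H) ↔ _
    rw [QuotientGroup.eq, mem_subgroupOf]
    simp [mul_assoc]
  have f : ∀ g : A, Fintype.card (fixedBy (H ⧸ M.subgroupOf H) g) = if g.1.1 ∈ center G then M.relIndex H else 1 := fun g => by
    split_ifs with z
    · rw [← Nat.card_eq_fintype_card]
      refine Nat.card_congr (Equiv.subtypeUnivEquiv fun x => ?_)
      induction x using QuotientGroup.induction_on
      exact (fx g _).2 (le_normalizer (zA ((inferInstance : (center G).Normal).conj_mem _ z _)).2)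
    · refine Fintype.card_eq_one_iff.2 ⟨⟨((1 : H) : H ⧸ M.subgroupOf H), (fx g 1).2 (by
        simpa using le_normalizer (mem_subgroupOf.1 g.2).2)⟩, fun ⟨x, hx⟩ => Subtype.ext ?_⟩
      induction x using QuotientGroup.induction_on
      rename_i x
      have y := (fx g x).1 hx
      have g3 : g.1.1 ^ 3 ∉ center G := fun h => z (by
        have h' := (center G).pow_relIndex_mem (mem_subgroupOf.1 g.2)
        rw [iN, ← QuotientGroup.eq_one_iff, QuotientGroup.mk_pow] at h'
        rw [← QuotientGroup.eq_one_iff, QuotientGroup.mk_pow] at h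
        rw [← QuotientGroup.eq_one_iff, ← orderOf_eq_one_iff]
        exact Nat.eq_one_of_dvd_coprimes c3 (orderOf_dvd_of_pow_eq_one h) (orderOf_dvd_of_pow_eq_one h'))
      have y3 : ((x : G)⁻¹ * g.1.1 * (x : G)⁻¹⁻¹) ^ 3 ∈ centralizer {t} := by
        obtain ⟨k, hk⟩ := T.nrm t p o
        have := pow_mem (pow_index_mem ((centralizer {t}).subgroupOf M) ⟨_, y⟩) k
        rw [← pow_mul, show ((centralizer {t}).subgroupOf M).index * k = 3 from hk.symm] at this
        exact this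
      rw [conj_pow] at y3
      refine QuotientGroup.eq.2 (mem_subgroupOf.2 ?_)
      simpa using mem_normalizer_iff.2 (T.dkey p o p o (pow_mem (mem_subgroupOf.1 g.2).2 3) g3 y3)
  have cA : Fintype.card A = d * N := by
    rw [← Nat.card_eq_fintype_card, ← hA]; exact Nat.card_congr (subgroupOfEquivOfLe inf_le_left).toEquiv
  have cz : (Finset.univ.filter fun g : A => g.1.1 ∈ center G).card = d := by
    rw [← Fintype.card_subtype, ← Nat.card_eq_fintype_card, ← T.cz]
    exact Nat.card_congr ⟨fun g => ⟨g.1.1.1, g.2⟩, fun z => ⟨⟨⟨z.1, hZ z.2⟩, zA z.2⟩, z.2⟩, fun _ => rfl, fun _ => rfl⟩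
  have cn := Finset.card_filter_add_card_filter_not (s := (Finset.univ : Finset A)) fun g : A => g.1.1 ∈ center G
  rw [Finset.sum_congr rfl fun g _ => f g, Finset.sum_ite, Finset.sum_const, Finset.sum_const, cA, cz] at B
  rw [cz, Finset.card_univ, cA] at cn
  simp only [smul_eq_mul, mul_one] at B
  generalize M.relIndex H = m at *
  generalize Fintype.card (Quotient (orbitRel A (H ⧸ M.subgroupOf H))) = k at *
  have e : m + N = 1 + k * N := Nat.eq_of_mul_eq_mul_left d0 (by nlinarith)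
  have : m + N ≡ 1 + k * N [MOD N] := e ▸ rfl
  simpa using this

omit T in
theorem Tor.cong {G Ω : Type*} [Group G] [Finite G] [MulAction G Ω] {d N : ℕ} (T : Tor G Ω d N) (H : Subgroup G)
    (hZ : center G ≤ H) (hN : N ∣ Nat.card H) (N1 : 1 < N) (h1 : Nat.card H < 7 * nd Ω H)
    (h3 : 3 * Nat.card H < 7 * nd Ω H ∨ N.Prime) : ∃ m, Nat.card H = 3 * (d * N) * m ∧ m ≡ 1 [MOD N] := by
  have d0 : 0 < d := T.cz ▸ Nat.card_pos
  obtain ⟨t, ot, -⟩ := d_cen (Nat.minFac_prime N1.ne') (N.minFac_dvd.trans hN)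
  have p : (orderOf (t : G)).Prime := by rw [Subgroup.orderOf_coe, ot]; exact Nat.minFac_prime N1.ne'
  have o : orderOf (t : G) ∣ N := by rw [Subgroup.orderOf_coe, ot]; exact N.minFac_dvd
  obtain ⟨a, ⟨b, hb⟩, ta, hA, hM, hU⟩ := T.done p o hZ t.2 h1
  have b1 : b = 1 := by
    rcases h3 with h3 | h3
    · by_contra b1
      have ps := Nat.minFac_prime b1
      have sN : b.minFac ∣ N := hb ▸ b.minFac_dvd.mul_left a
      obtain ⟨s, os, ns⟩ := d_cen ps (sN.trans hN)
      have p' : (orderOf (s : G)).Prime := by rwa [Subgroup.orderOf_coe, os]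
      have o' : orderOf (s : G) ∣ N := by rwa [Subgroup.orderOf_coe, os]
      obtain ⟨-, -, -, -, -, hU'⟩ := T.done p' o' hZ s.2 h1
      have dj : Disjoint (dU H (t : G)) (dU H (s : G)) := Set.disjoint_left.2 (by
        rintro _ ⟨h, hh, x, hx, xz, rfl⟩ ⟨k, hk, y, hy, -, e⟩
        have key := T.dkey p o p' o' (x := k⁻¹ * h) hx.2 xz (by
          rw [show k⁻¹ * h * x * (k⁻¹ * h)⁻¹ = k⁻¹ * (h * x * h⁻¹) * k by group, e]
          simpa [mul_assoc] using hy.2)
        have e1 : (centralizer {s} : Subgroup H).index = (H ⊓ centralizer {(t : G)}).relIndex H := by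
          have : (H ⊓ centralizer {(t : G)}).subgroupOf H =
              (centralizer {s} : Subgroup H).comap (MulAut.conj (⟨k⁻¹ * h, mul_mem (inv_mem hk) hh⟩ : H)).toMonoidHom := by
            ext z
            rw [mem_subgroupOf, mem_inf, key, mem_comap, mem_centralizer_singleton_iff, mem_centralizer_singleton_iff,
              Subtype.ext_iff]
            simp
          rw [relIndex, this, index_comap_of_surjective _ (MulEquiv.surjective _)]
        refine ns (e1 ▸ b.minFac_dvd.trans ?_)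
        have m := d_mul (inf_le_left : H ⊓ centralizer {(t : G)} ≤ H)
        have dN : d * N ∣ Nat.card H := T.cop.mul_dvd_of_dvd_of_dvd (T.cz ▸ card_dvd_of_le hZ) hN
        rw [← m, hA, hb, ← mul_assoc] at dN
        exact Nat.dvd_of_mul_dvd_mul_left (hA ▸ Nat.card_pos) dN)
      have := d_le (Set.union_subset (T.dsub (H := H) p o) (T.dsub (H := H) p' o'))
      rw [Set.ncard_union_eq dj] at this
      omega
    · exact ((hb ▸ h3 : (a * b).Prime).eq_one_or_self_of_dvd b (dvd_mul_left _ _)).resolve_right fun e => by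
        have : a = 1 := Nat.eq_of_mul_eq_mul_right (Nat.pos_of_mul_pos_left (hb ▸ zero_lt_one.trans N1)) (by rw [← e, one_mul])
        exact p.ne_one (Nat.dvd_one.1 (this ▸ ta))
  rw [b1, mul_one] at hb
  subst hb
  refine ⟨_, ?_, T.dmod p o hZ hA⟩
  rw [← hM, ← inf_relIndex_left H, d_mul inf_le_left]

end Cfsg.Agent.U3M
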