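import Mathlib

/-! Minimal index of `PSU₃(q)`: the final arithmetic. -/

set_option autoImplicit false

namespace Cfsg.Agent.U3M

theorem arith {q n N m : ℕ} (q3 : 3 ≤ q) (q5 : q ≠ 5) (hN : Nat.gcd 3 (q + 1) * N = q ^ 2 - q + 1) (hn : n ≤ q ^ 3)
    (h : n * 3 * m = q ^ 3 * (q ^ 2 - 1) * (q + 1)) (hm : m ≡ 1 [MOD N])
    (k : q ^ 2 ∣ n ∨ ∃ i y, 0 < i ∧ (i + 1) ^ 2 ≤ q ∧ n * i = q * y * (q - 1)) : False := by
  have l1 : q ≤ q ^ 2 := by nlinarith
  have l2 : 1 ≤ q ^ 2 := by omega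
  obtain ⟨d, hd, hN, h3⟩ : ∃ d : ℕ, (d = 1 ∨ d = 3 ∧ q % 3 = 2) ∧ d * N = q ^ 2 - q + 1 ∧ ¬ 3 ∣ N := by
    refine ⟨_, ?_, hN, fun h3 => ?_⟩
    · rcases (Nat.dvd_prime Nat.prime_three).1 (Nat.gcd_dvd_left 3 (q + 1)) with e | e
      · exact Or.inl e
      · have := Nat.gcd_dvd_right 3 (q + 1)
        rw [e] at this
        exact Or.inr ⟨e, by omega⟩
    · obtain ⟨c, rfl⟩ := h3
      obtain ⟨s, r, hr, rfl⟩ : ∃ s r, r < 3 ∧ q = 3 * s + r := ⟨q / 3, q % 3, Nat.mod_lt _ (by norm_num), by omega⟩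
      have e : (3 * s + r) ^ 2 = 9 * (s * s) + 6 * (s * r) + r * r := by ring
      interval_cases r
      · rw [show Nat.gcd 3 (3 * s + 0 + 1) = 1 from Nat.Coprime.gcd_eq_one
          ((Nat.Prime.coprime_iff_not_dvd Nat.prime_three).2 (by omega))] at hN
        omega
      · rw [show Nat.gcd 3 (3 * s + 1 + 1) = 1 from Nat.Coprime.gcd_eq_one
          ((Nat.Prime.coprime_iff_not_dvd Nat.prime_three).2 (by omega))] at hN
        omega
      · rw [show Nat.gcd 3 (3 * s + 2 + 1) = 3 from Nat.gcd_eq_left (by omega)] at hN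
        omega
  have hz : (d : ℤ) * N = (q : ℤ) ^ 2 - q + 1 := by
    have := congrArg (Nat.cast : ℕ → ℤ) hN
    push_cast [Nat.cast_sub l1] at this
    exact this
  have hh : (n : ℤ) * 3 * m = (q : ℤ) ^ 3 * ((q : ℤ) ^ 2 - 1) * (q + 1) := by
    have := congrArg (Nat.cast : ℕ → ℤ) h
    push_cast [Nat.cast_sub l2] at this
    exact this
  obtain ⟨c, hc⟩ : (N : ℤ) ∣ (1 : ℤ) - m := by simpa using (Nat.modEq_iff_dvd.1 hm)
  have cop : IsCoprime (N : ℤ) 3 := by
    have := Nat.isCoprime_iff_coprime.2 ((Nat.Prime.coprime_iff_not_dvd Nat.prime_three).2 h3).symm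
    simpa using this
  obtain ⟨e, he⟩ : (N : ℤ) ∣ (n : ℤ) - 1 := by
    refine cop.dvd_of_dvd_mul_left ⟨3 * n * c + d * ((q : ℤ) ^ 4 + 2 * q ^ 3 - 3 * q - 3), ?_⟩
    linear_combination hh + 3 * n * hc - ((q : ℤ) ^ 4 + 2 * q ^ 3 - 3 * q - 3) * hz
  have q0 : (3 : ℤ) ≤ q := by exact_mod_cast q3
  rcases k with ⟨k, rfl⟩ | ⟨i, y, i0, hi, hy⟩
  · have kq : k ≤ q := by
      by_contra hk
      have : q ^ 2 * (q + 1) ≤ q ^ 2 * k := Nat.mul_le_mul_left _ (by omega)
      nlinarith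
    have dv : N ∣ k + q := by
      rw [← Int.natCast_dvd_natCast]
      push_cast at he ⊢
      exact ⟨d * (q + 1) * k - q * e, by linear_combination -(q : ℤ) * he - ((q : ℤ) + 1) * k * hz⟩
    have le := Nat.le_of_dvd (by omega) dv
    rcases hd with rfl | ⟨rfl, h2⟩
    · have : q ^ 2 + 1 ≤ 3 * q := by omega
      nlinarith
    · have : q ^ 2 + 1 ≤ 7 * q := by omega
      have : 8 ≤ q := by omega
      nlinarith
  · have hy' : (n : ℤ) * i = q * y * (q - 1) := by
      have := congrArg (Nat.cast : ℕ → ℤ) hy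
      push_cast [Nat.cast_sub (show 1 ≤ q by omega)] at this
      exact this
    have dv : N ∣ y + i := by
      rw [← Int.natCast_dvd_natCast]
      push_cast
      exact ⟨d * y - e * i, by linear_combination hy' - i * he - y * hz⟩
    have le := Nat.le_of_dvd (by omega) dv
    have hn' : (n : ℤ) ≤ (q : ℤ) ^ 3 := by exact_mod_cast hn
    have i0' : (1 : ℤ) ≤ i := by exact_mod_cast i0
    have hi' : ((i : ℤ) + 1) ^ 2 ≤ q := by exact_mod_cast hi
    have h1 : (y : ℤ) * (q - 1) ≤ (q : ℤ) ^ 2 * i := by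
      refine le_of_mul_le_mul_left (a := (q : ℤ)) ?_ (by omega)
      nlinarith
    have h2 : (y : ℤ) ≤ (q + 1) * i := by
      by_contra hc
      have : ((q : ℤ) + 1) * i + 1 ≤ y := by omega
      have := mul_le_mul_of_nonneg_right this (show (0 : ℤ) ≤ q - 1 by omega)
      nlinarith
    have le' : (N : ℤ) ≤ y + i := by exact_mod_cast le
    have h4 : (d : ℤ) * i ≤ q - 3 := by
      rcases hd with rfl | ⟨rfl, h2⟩
      · push_cast; nlinarith
      · push_cast
        by_cases e1 : i = 1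
        · subst e1
          have : 8 ≤ q := by omega
          have : (8 : ℤ) ≤ q := by exact_mod_cast this
          push_cast; omega
        · have : (2 : ℤ) ≤ i := by have : 2 ≤ i := by omega
                                   exact_mod_cast this
          nlinarith
    have h5 : (d : ℤ) * N ≤ d * ((q + 2) * i) := mul_le_mul_of_nonneg_left (by linarith) (by positivity)
    have h6 := mul_le_mul_of_nonneg_right h4 (show (0 : ℤ) ≤ q + 2 by omega)
    nlinarith

end Cfsg.Agent.U3M
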