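import Cfsg.Agent.U3M.G
import Cfsg.Agent.U3M.B0
import Cfsg.Agent.U3M.D
import Cfsg.Agent.U3M.E0
import Cfsg.Agent.U3M.H0
import Cfsg.Agent.Classical.GUCard
import Cfsg.Agent.S0283

/-! Minimal index of `PSU₃(q)`: assembly. -/

set_option autoImplicit false
set_option linter.unusedSectionVars false

namespace Cfsg.Agent.U3M

open Subgroup MulAction Cfsg.Agent.Pres Cfsg.Agent.CI Cfsg.Agent.Classical

theorem card_tr {G Ω : Type*} [Group G] [MulAction G Ω] (H : Subgroup G) (h : IsPretransitive H Ω) (x : Ω) :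
    Nat.card H = Nat.card Ω * Nat.card (H ⊓ stabilizer G x :) := by
  have h1 := index_stabilizer_of_transitive H x
  have h2 : stabilizer H x = (H ⊓ stabilizer G x).subgroupOf H := by
    ext g
    rw [mem_subgroupOf, mem_inf]
    exact ⟨fun h => ⟨g.2, h⟩, fun h => h.2⟩
  rw [← card_mul_index ((H ⊓ stabilizer G x).subgroupOf H), ← h2, h1, h2,
    Nat.card_congr (subgroupOfEquivOfLe inf_le_left).toEquiv, mul_comm]

theorem ex_tr {G Ω : Type*} [Group G] [MulAction G Ω] (H : Subgroup G) (h : IsPretransitive H Ω) (x y : Ω) :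
    ∃ k ∈ H, k • x = y := by
  obtain ⟨k, hk⟩ := h.exists_smul_eq x y
  exact ⟨k, k.2, hk⟩

variable {F : Type*} [Field F] {q : ℕ} [Fintype F] [hF : Fact (Fintype.card F = q ^ 2)]

theorem cardSU : Nat.card (SU 3 F q) = q ^ 3 * (q ^ 2 - 1) * (q ^ 3 + 1) := by
  have h1 := card_SU_mul (F := F) (q := q) (n := 3) (by norm_num)
  rw [card_GU] at h1
  simp only [Finset.prod_range_succ, Finset.range_zero, Finset.prod_empty] at h1
  norm_num at h1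
  refine Nat.eq_of_mul_eq_mul_left (Nat.succ_pos q) (h1.trans ?_)
  simp only [Nat.succ_eq_add_one]; ring

theorem cube (h : 1 ≤ q) : q ^ 3 + 1 = (q + 1) * (q ^ 2 - q + 1) := by
  have : q ≤ q ^ 2 := by nlinarith
  zify [this]; ring

theorem gcd_mul (h : 2 ≤ q) : Nat.gcd 3 (q + 1) * ((q ^ 2 - q + 1) / Nat.gcd 3 (q + 1)) = q ^ 2 - q + 1 := by
  refine Nat.mul_div_cancel' ?_
  have : q ≤ q ^ 2 := by nlinarith
  rw [show q ^ 2 - q + 1 = (q + 1) * (q - 2) + 3 by zify [this, h]; ring]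
  exact dvd_add ((Nat.gcd_dvd_right _ _).mul_right _) (Nat.gcd_dvd_left _ _)

variable {σ : F →+* F} [hσ : Fact (∀ x, σ (σ x) = x)]

theorem exists_z (hq : ∀ x, σ x = x ^ q) : ∃ z ∈ ZZ σ, ∀ y : UG σ 3 ⧸ B3 σ, z • y = y → y = ((1 : UG σ 3) : UG σ 3 ⧸ B3 σ) := by
  obtain ⟨x, hx⟩ := e0_ne hF.out hq
  have ok : Ok3 σ 0 (x - σ x) := by simp [Ok3, hσ.out]
  refine ⟨_, ⟨_, ok, rfl⟩, fun y hy => by_contra fun y1 => ?_⟩
  obtain ⟨u, -, l, -, hl, e⟩ := fixc (u3_mem _ _) y1 hy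
  rw [ee_u ok] at hl
  obtain rfl : l = 1 := Units.ext hl
  rw [map_one, mul_one, mul_inv_cancel, ← u3_zero] at e
  exact hx (sub_eq_zero.1 (u3_inj ok (by simp [Ok3]) e).2).symm

omit hF [Fintype F] in
theorem fixB {g : UG σ 3} : g • ((1 : UG σ 3) : UG σ 3 ⧸ B3 σ) = ((1 : UG σ 3) : UG σ 3 ⧸ B3 σ) ↔ g ∈ B3 σ := by
  rw [← mem_stabilizer_iff, stabilizer_quotient]

theorem cenB (hq : ∀ x, σ x = x ^ q) : center (UG σ 3) ≤ B3 σ := fun c hc => by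
  obtain ⟨z, hz, h⟩ := exists_z hq
  refine fixB.1 (h _ ?_)
  rw [← mul_smul, mem_center_iff.1 hc, mul_smul, fixB.2 (UU_le (ZZ_le hz))]

omit hF [Fintype F] in
theorem conjZ {b z : UG σ 3} (hb : b ∈ B3 σ) (hz : z ∈ ZZ σ) : b * z * b⁻¹ ∈ ZZ σ := by
  obtain ⟨a, c, l, ok, rfl⟩ := mem_B3.1 hb
  have h1 := h3_conj_ZZ hz l
  have h2 := commutatorElement_eq_one_iff_mul_comm.1 (ZZ_comm ⟨a, c, ok, rfl⟩ h1)
  have : u3 σ a c * h3 σ l * z * (u3 σ a c * h3 σ l)⁻¹ = u3 σ a c * (h3 σ l * z * (h3 σ l)⁻¹) * (u3 σ a c)⁻¹ := by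
    group
  rwa [this, h2, mul_inv_cancel_right]

theorem main (hq : ∀ x, σ x = x ^ q) (q3 : 3 ≤ q) (q5 : q ≠ 5) {X : Type*} [Group X] [IsSimpleGroup X]
    (π : UG σ 3 →* X) (sur : Function.Surjective π) (hk : π.ker = center (UG σ 3))
    (hc : Nat.card (UG σ 3) = q ^ 3 * (q ^ 2 - 1) * (q ^ 3 + 1))
    (T : Tor (UG σ 3) (UG σ 3 ⧸ B3 σ) (Nat.gcd 3 (q + 1)) ((q ^ 2 - q + 1) / Nat.gcd 3 (q + 1)))
    (idx : ∀ K : Subgroup (UG σ 3), K ≤ B3 σ → ¬ ZZ σ ≤ K → q ^ 2 ∣ K.relIndex (B3 σ) ∨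
      ∃ i y, 0 < i ∧ (i + 1) ^ 2 ≤ q ∧ K.relIndex (B3 σ) * i = q * y * (q - 1)) :
    (∀ H : Subgroup X, H ≠ ⊤ → q ^ 3 + 1 ≤ H.index) ∧ ∃ H : Subgroup X, H.index = q ^ 3 + 1 := by
  have q9 : 9 ≤ q ^ 2 := by nlinarith
  have b0 : 0 < q ^ 3 * (q ^ 2 - 1) := Nat.mul_pos (by positivity) (by omega)
  have cΩ : Nat.card (UG σ 3 ⧸ B3 σ) = q ^ 3 + 1 := by
    have := card_mul_index (B3 σ)
    rw [cardB' hq, hc] at this
    exact Nat.eq_of_mul_eq_mul_left b0 this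
  refine ⟨fun H0 h0 => by_contra fun hn => ?_, (B3 σ).map π, ?_⟩
  swap
  · rw [← index_comap_of_surjective _ sur, comap_map_eq, hk, sup_eq_left.2 (cenB hq)]
    exact cΩ
  rw [← index_comap_of_surjective _ sur] at hn
  set H := H0.comap π
  have hZ : center (UG σ 3) ≤ H := hk ▸ ker_le_comap _ _
  have tr := trans' two' H (by omega)
  have hK : H ⊓ B3 σ ≤ B3 σ := inf_le_right
  have c1 : Nat.card H = (q ^ 3 + 1) * Nat.card (H ⊓ B3 σ :) := by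
    have := card_tr H tr ((1 : UG σ 3) : UG σ 3 ⧸ B3 σ)
    rwa [stabilizer_quotient, cΩ] at this
  have c2 := card_mul_index H
  have c3 : (H ⊓ B3 σ).relIndex (B3 σ) = H.index := by
    have := card_mul_index ((H ⊓ B3 σ).subgroupOf (B3 σ))
    rw [cardB' hq, Nat.card_congr (subgroupOfEquivOfLe hK).toEquiv] at this
    refine Nat.eq_of_mul_eq_mul_left (Nat.card_pos (α := (H ⊓ B3 σ :))) (this.trans ?_)
    rw [c1, hc, mul_assoc, mul_comm (q ^ 3 + 1)] at c2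
    exact (Nat.eq_of_mul_eq_mul_right (by positivity) c2).symm
  have nZ : ¬ ZZ σ ≤ H ⊓ B3 σ := fun hz => by
    obtain ⟨z, zZ, h⟩ := exists_z hq
    have : π z ∈ H0.normalCore := fun g0 => by
      obtain ⟨g, rfl⟩ := sur g0
      obtain ⟨k, kH, hk⟩ := ex_tr H tr ((1 : UG σ 3) : UG σ 3 ⧸ B3 σ) (g • ((1 : UG σ 3) : UG σ 3 ⧸ B3 σ))
      have hb : k⁻¹ * g ∈ B3 σ := fixB.1 (by rw [mul_smul, ← hk]; exact inv_smul_smul k _)
      have := H.mul_mem (H.mul_mem kH (hz (conjZ hb zZ)).1) (H.inv_mem kH)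
      rw [← map_inv, ← map_mul, ← map_mul]
      rwa [show k * (k⁻¹ * g * z * (k⁻¹ * g)⁻¹) * k⁻¹ = g * z * g⁻¹ by
        group] at this
    obtain e | e := (normalCore_normal H0).eq_bot_or_eq_top
    · rw [e, mem_bot, ← MonoidHom.mem_ker, hk] at this
      refine t3_notMem (fixB.1 (h _ ?_))
      rw [← mul_smul, ← mem_center_iff.1 this, mul_smul, fixB.2 (UU_le (ZZ_le zZ))]
    · exact h0 (top_le_iff.1 (e ▸ H0.normalCore_le))
  have hN := gcd_mul (q := q) (by omega)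
  have lo := low hq q3 hK (by omega)
  have ct := cnt' H tr ((1 : UG σ 3) : UG σ 3 ⧸ B3 σ)
  rw [stabilizer_quotient, cΩ] at ct
  have cu := cube (q := q) (by omega)
  have k : ∀ j : ℕ, 2 * j * Nat.card (H ⊓ B3 σ :) < 7 * (ef (UG σ 3 ⧸ B3 σ) (H ⊓ B3 σ) 1 +
      ef (UG σ 3 ⧸ B3 σ) (H ⊓ B3 σ) 2) → j * Nat.card H < 7 * nd (UG σ 3 ⧸ B3 σ) H := fun j h => by
    have := Nat.mul_lt_mul_of_pos_left h (show 0 < q ^ 3 + 1 by positivity)
    rw [c1]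
    nlinarith
  obtain ⟨m, hm, hm1⟩ := T.cong H hZ (by
    rw [c1, cu]
    exact ((Dvd.intro_left _ hN).mul_left _).mul_right _) (by
    have h1 : Nat.gcd 3 (q + 1) ≤ 3 := Nat.gcd_le_left _ (by norm_num)
    have h2 : 3 * q ≤ q ^ 2 := by nlinarith
    by_contra h
    have := Nat.mul_le_mul h1 (not_lt.1 h)
    omega) (by simpa using k 1 lo.1) (by
    by_cases h : 9 ≤ q
    · exact .inl (k 3 (lo.2 h))
    · right
      push Not at h
      interval_cases q <;> first | omega | norm_num)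
  refine arith q3 q5 hN (n := H.index) (by omega) ?_ hm1 (c3 ▸ idx _ hK nZ)
  rw [hm, hc, hN, cu] at c2
  refine Nat.eq_of_mul_eq_mul_right (show 0 < q ^ 2 - q + 1 by omega) ?_
  linear_combination c2

end Cfsg.Agent.U3M
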