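import Mathlib
import Cfsg.Agent.Classical.GUCard

/-! The anisotropic tori of `SU₃(q)` (helper20): `torSU`. -/

set_option autoImplicit false
set_option linter.style.haveILetI false

namespace Cfsg.Agent.U3M

open Subgroup Matrix Polynomial Cfsg.Agent.Classical

variable {F : Type*} [Field F]

/-- No eigenvector. -/
def NoEv (T : Matrix (Fin 3) (Fin 3) F) : Prop := ∀ (v : Fin 3 → F) (c : F), T *ᵥ v = c • v → v = 0

/-- The centraliser algebra. -/
abbrev KK (T : Matrix (Fin 3) (Fin 3) F) := Subalgebra.centralizer F ({T} : Set (Matrix (Fin 3) (Fin 3) F))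

theorem mem_KK {T A : Matrix (Fin 3) (Fin 3) F} : A ∈ KK T ↔ T * A = A * T := by
  simp [Subalgebra.mem_centralizer_iff]

theorem cx_surj {T : Matrix (Fin 3) (Fin 3) F} (h : NoEv T) {v : Fin 3 → F} (hv : v ≠ 0) (w : Fin 3 → F) :
    ∃ f : F[X], aeval T f *ᵥ v = w := by
  have hp : Irreducible T.charpoly := irreducible_of_degree_le_three_of_not_isRoot
    (by simp [charpoly_natDegree_eq_dim]) fun x hx => by
      rw [IsRoot, Matrix.eval_charpoly] at hx
      obtain ⟨u, hu, e⟩ := exists_mulVec_eq_zero_iff.2 hx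
      refine hu (h u x ?_)
      rw [sub_mulVec, sub_eq_zero] at e
      rw [← e]
      ext i
      simp [scalar_apply, mulVec_diagonal]
  let L0 : F[X] →ₗ[F] (Fin 3 → F) :=
    { toFun := fun f => aeval T f *ᵥ v
      map_add' := fun a b => by rw [map_add, add_mulVec]
      map_smul' := fun a b => by rw [map_smul, smul_mulVec]; rfl }
  let L := (L0.comp (degreeLT F 3).subtype).comp (degreeLTEquiv F 3).symm.toLinearMap
  have hi : Function.Injective L := by
    refine ((injective_iff_map_eq_zero (L0.comp (degreeLT F 3).subtype)).2 fun f hf => ?_).comp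
      (degreeLTEquiv F 3).symm.injective
    by_contra f0
    have f1 : (f : F[X]) ≠ 0 := fun e => f0 (Subtype.ext e)
    obtain ⟨a, b, e⟩ := hp.coprime_iff_not_dvd.2 fun d => absurd (degree_le_of_dvd d f1) (not_le.2 (by
      rw [charpoly_degree_eq_dim]; simpa using mem_degreeLT.1 f.2))
    have h1 := congrArg (fun f => aeval T f *ᵥ v) e
    have h2 : aeval T (f : F[X]) *ᵥ v = 0 := hf
    simp only [map_add, map_mul, aeval_self_charpoly, mul_zero, zero_add, map_one, one_mulVec, ← mulVec_mulVec, h2,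
      mulVec_zero] at h1
    exact hv h1.symm
  obtain ⟨c, hc⟩ := LinearMap.injective_iff_surjective.1 hi w
  exact ⟨_, hc⟩

theorem cx_ev {T A : Matrix (Fin 3) (Fin 3) F} (h : NoEv T) (hA : A ∈ KK T) {v : Fin 3 → F} (hv : v ≠ 0)
    (e : A *ᵥ v = 0) : A = 0 := by
  refine Matrix.ext_of_mulVec_single fun i => ?_
  obtain ⟨f, hf⟩ := cx_surj h hv (Pi.single i 1)
  have c : Commute A (aeval T f) := Algebra.commute_of_mem_adjoin_singleton_of_commute
    (aeval_mem_adjoin_singleton F T) (mem_KK.1 hA).symm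
  rw [← hf, mulVec_mulVec, c.eq, ← mulVec_mulVec, e, mulVec_zero, zero_mulVec]

theorem cx_field [Finite F] {T : Matrix (Fin 3) (Fin 3) F} (h : NoEv T) : IsField (KK T) := by
  obtain ⟨v, hv⟩ := exists_ne (0 : Fin 3 → F)
  haveI : NoZeroDivisors (KK T) := ⟨fun {a b} e => by
    by_contra k
    push Not at k
    refine k.1 (Subtype.ext (cx_ev h a.2 (v := b.1 *ᵥ v) (fun e => k.2 (Subtype.ext (cx_ev h b.2 hv e))) ?_))
    rw [mulVec_mulVec, show a.1 * b.1 = 0 from congrArg Subtype.val e, zero_mulVec]⟩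
  haveI : IsDomain (KK T) := NoZeroDivisors.to_isDomain _
  exact Finite.isDomain_to_isField _

theorem cx_comm [Finite F] {T A B : Matrix (Fin 3) (Fin 3) F} (h : NoEv T) (hA : A ∈ KK T) (hB : B ∈ KK T) :
    A * B = B * A := congrArg Subtype.val ((cx_field h).mul_comm ⟨A, hA⟩ ⟨B, hB⟩)

theorem cx_equiv {T : Matrix (Fin 3) (Fin 3) F} (h : NoEv T) :
    ∃ e : KK T ≃ₗ[F] (Fin 3 → F), ∀ a b : KK T, e (a * b) = a.1 *ᵥ e b := by
  obtain ⟨v, hv⟩ := exists_ne (0 : Fin 3 → F)
  let L : KK T →ₗ[F] (Fin 3 → F) :=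
    { toFun := fun a => a.1 *ᵥ v
      map_add' := fun a b => add_mulVec _ _ _
      map_smul' := fun a b => smul_mulVec _ _ _ }
  refine ⟨LinearEquiv.ofBijective L ⟨(injective_iff_map_eq_zero L).2 fun a e => Subtype.ext (cx_ev h a.2 hv e),
    fun w => ?_⟩, fun a b => (mulVec_mulVec v a.1 b.1).symm⟩
  obtain ⟨f, hf⟩ := cx_surj h hv w
  exact ⟨⟨aeval T f, mem_KK.2 (Algebra.commute_of_mem_adjoin_singleton_of_commute
    (aeval_mem_adjoin_singleton F T) (Commute.refl T)).eq⟩, hf⟩

variable {q : ℕ} [Fintype F] [hF : Fact (Fintype.card F = q ^ 2)]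

theorem cx_noev (t : SU 3 F q) (hr : (orderOf t).Prime) (h : orderOf t ∣ q ^ 2 - q + 1) (h3 : orderOf t ≠ 3) :
    NoEv t.1.1 := by
  classical
  set r := orderOf t
  haveI := Fact.mk hr
  have q2 := two_le_q F (q := q)
  have a0 : (q : ZMod r) ^ 2 - q + 1 = 0 := by
    have := (ZMod.natCast_eq_zero_iff _ _).2 h
    rwa [Nat.cast_add, Nat.cast_sub (by nlinarith), Nat.cast_pow, Nat.cast_one] at this
  have a3 : (3 : ZMod r) ≠ 0 := fun e => h3 ((Nat.prime_dvd_prime_iff_eq hr Nat.prime_three).1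
    ((ZMod.natCast_eq_zero_iff 3 r).1 (by exact_mod_cast e)))
  have a1 : (q : ZMod r) + 1 ≠ 0 := fun e => a3 (by linear_combination a0 - ((q : ZMod r) - 2) * e)
  have a2 : (q : ZMod r) ^ 2 ≠ 1 := fun e => by
    have : (q : ZMod r) = 2 := by linear_combination e - a0
    rw [this] at e
    exact a3 (by linear_combination e)
  have tr : t.1.1 ^ r = 1 := by
    have : (t ^ r).1.1 = 1 := congrArg (fun g : SU 3 F q => g.1.1) (pow_orderOf_eq_one t)
    rwa [SubgroupClass.coe_pow, Matrix.SpecialLinearGroup.coe_pow] at this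
  intro v c e
  by_contra hv
  have ck : ∀ k : ℕ, t.1.1 ^ k *ᵥ v = c ^ k • v := fun k => by
    induction k with
    | zero => simp
    | succ k ih => rw [pow_succ, ← mulVec_mulVec, e, mulVec_smul, ih, smul_smul, pow_succ']
  have c1 : c ^ r = 1 := smul_left_injective F hv (by simp only; rw [← ck, tr, one_mulVec, one_smul])
  have c0 : c ≠ 0 := fun e => by rw [e, zero_pow hr.ne_zero] at c1; exact zero_ne_one c1
  have c2 : c = 1 := by
    by_contra k
    have h1 := orderOf_dvd_of_pow_eq_one (FiniteField.pow_card_sub_one_eq_one c c0)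
    rw [orderOf_eq_prime c1 k, hF.out] at h1
    have h2 := (ZMod.natCast_eq_zero_iff _ _).2 h1
    rw [Nat.cast_sub (by nlinarith), Nat.cast_pow, Nat.cast_one, sub_eq_zero] at h2
    exact a2 h2
  rw [c2, one_smul] at e
  let W := LinearMap.ker (toLin' (t.1.1 - 1))
  have mW : ∀ x, x ∈ W ↔ t.1.1 *ᵥ x = x := fun x => by simp [W, sub_mulVec, sub_eq_zero]
  have w1 : W ≠ ⊤ := fun e => hr.ne_one (orderOf_eq_one_iff.2 (Subtype.ext (Subtype.ext
    (Matrix.ext_of_mulVec_single fun i => by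
      rw [(mW _).1 (e ▸ trivial)]; exact (one_mulVec _).symm))))
  letI : MulAction (SU 3 F q) (Fin 3 → F) :=
    { smul := fun g x => g.1.1 *ᵥ x
      one_smul := fun x => one_mulVec x
      mul_smul := fun a b x => (mulVec_mulVec x a.1.1 b.1.1).symm }
  have hg : IsPGroup r (zpowers t) := IsPGroup.of_card (n := 1) (by rw [Nat.card_zpowers, pow_one])
  have c := hg.card_modEq_card_fixedPoints (Fin 3 → F)
  have e' : MulAction.fixedPoints (zpowers t) (Fin 3 → F) = W := by
    ext x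
    rw [SetLike.mem_coe, mW]
    exact ⟨fun hx => hx ⟨t, mem_zpowers t⟩, fun hx y =>
      (show zpowers t ≤ MulAction.stabilizer _ x from zpowers_le.2 hx) y.2⟩
  have c2 : Nat.card W = (q ^ 2) ^ Module.finrank F W := by
    rw [Module.natCard_eq_pow_finrank (K := F), natCard_eq_sq (q := q)]
  rw [e', Nat.card_pi, Finset.prod_const, natCard_eq_sq (q := q), Finset.card_univ, Fintype.card_fin] at c
  change _ ≡ Nat.card W [MOD r] at c
  have f0 : Module.finrank F W ≠ 0 := fun k => hv (by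
    have : v ∈ W := (mW v).2 e
    rwa [Submodule.finrank_eq_zero.1 k] at this)
  have f1 := Submodule.finrank_lt w1
  rw [Module.finrank_fin_fun] at f1
  have a4 := (ZMod.natCast_eq_natCast_iff _ _ _).2 c
  rw [c2] at a4
  push_cast at a4
  generalize (q : ZMod r) = s at *
  obtain k | k : Module.finrank F W = 1 ∨ Module.finrank F W = 2 := by omega
  all_goals rw [k] at a4
  · exact a2 (by linear_combination -a4 + (s + 1) * (s ^ 3 - 1) * a0)
  · exact a1 (by linear_combination a4 - ((s + 1) * (s ^ 3 - 1) - s * (s + 1)) * a0)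

theorem torSU (t : SU 3 F q) (hr : (orderOf t).Prime) (h : orderOf t ∣ q ^ 2 - q + 1) (h3 : orderOf t ≠ 3) :
    (∀ a ∈ centralizer {t}, ∀ b ∈ centralizer {t}, a * b = b * a) ∧
    Nat.card (centralizer {t} : Subgroup (SU 3 F q)) ∣ q ^ 2 - q + 1 ∧
    (∀ g ∈ centralizer {t}, g ∉ center (SU 3 F q) → centralizer {g} = centralizer {t} ∧
      ∀ (v : Fin 3 → F) (c : F), g.1.1.mulVec v = c • v → v = 0) ∧
    (centralizer {t} : Subgroup (SU 3 F q)).relIndex
      (normalizer ((centralizer {t} : Subgroup (SU 3 F q)) : Set (SU 3 F q))) ∣ 3 := by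
  classical
  have hT := cx_noev t hr h h3
  have q2 := two_le_q F (q := q)
  have mC : ∀ {g a : SU 3 F q}, a ∈ centralizer {g} ↔ a.1.1 ∈ KK g.1.1 := fun {g a} => by
    rw [mem_centralizer_singleton_iff, mem_KK]
    exact ⟨fun e => (congrArg (fun x : SU 3 F q => x.1.1) e).symm, fun e => Subtype.ext (Subtype.ext e.symm)⟩
  have cm : ∀ {g : SU 3 F q}, NoEv g.1.1 → ∀ a ∈ centralizer {g}, ∀ b ∈ centralizer {g}, a * b = b * a :=
    fun hg a ha b hb => Subtype.ext (Subtype.ext (cx_comm hg (mC.1 ha) (mC.1 hb)))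
  have iv : ∀ g : SU 3 F q, g.1.1 * (g⁻¹).1.1 = 1 := fun g => congrArg (fun x : SU 3 F q => x.1.1) (mul_inv_cancel g)
  have vi : ∀ g : SU 3 F q, (g⁻¹).1.1 * g.1.1 = 1 := fun g => congrArg (fun x : SU 3 F q => x.1.1) (inv_mul_cancel g)
  letI : Field (KK t.1.1) := (cx_field hT).toField
  obtain ⟨e, he⟩ := cx_equiv hT
  have fr : Module.finrank F (KK t.1.1) = 3 := by rw [e.finrank_eq, Module.finrank_fin_fun]
  have cG : Nat.card (KK t.1.1 ≃ₐ[F] KK t.1.1) = 3 := (IsGalois.card_aut_eq_finrank F _).trans fr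
  refine ⟨cm hT, ?_, fun g hg hz => ?_, ?_⟩
  · let σ := Geom.frobq hF.out
    let ad : Matrix (Fin 3) (Fin 3) F → Matrix (Fin 3) (Fin 3) F := fun A => (A.map σ)ᵀ
    have am : ∀ A B, ad (A * B) = ad B * ad A := fun A B => by simp only [ad, Matrix.map_mul, transpose_mul]
    have au : ∀ g : SU 3 F q, ad g.1.1 * g.1.1 = 1 := fun g => by
      have := congrArg transpose (gu_mul_conj (suToGU 3 F q g))
      rwa [transpose_mul, transpose_transpose, transpose_one] at this
    have at' : ad t.1.1 = (t⁻¹).1.1 := by rw [← mul_one (ad t.1.1), ← iv t, ← mul_assoc, au, one_mul]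
    have aK : ∀ A ∈ KK t.1.1, ad A ∈ KK t.1.1 := fun A hA => mem_KK.2 (by
      have h1 := congrArg ad (mem_KK.1 hA)
      rw [am, am, at'] at h1
      calc t.1.1 * ad A = t.1.1 * (ad A * (t⁻¹).1.1) * t.1.1 := by rw [mul_assoc, mul_assoc, vi, mul_one]
        _ = _ := by rw [h1, ← mul_assoc, iv, one_mul])
    let τ : KK t.1.1 →+* KK t.1.1 :=
      { toFun := fun A => ⟨ad A.1, aK _ A.2⟩
        map_one' := Subtype.ext (by simp [ad])
        map_mul' := fun A B => Subtype.ext ((am _ _).trans (cx_comm hT (aK _ B.2) (aK _ A.2)))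
        map_zero' := Subtype.ext (by simp [ad])
        map_add' := fun A B => Subtype.ext (by simp [ad, Matrix.map_add]) }
    have tt : ∀ x, τ (τ x) = x := fun x => Subtype.ext (by
      ext i j
      exact pow_q_q (q := q) _)
    have tF : ∀ c : F, τ (algebraMap F _ c) = algebraMap F _ (c ^ q) := fun c => Subtype.ext (by
      ext i j
      change (algebraMap F (Matrix (Fin 3) (Fin 3) F) c j i) ^ q = algebraMap F (Matrix (Fin 3) (Fin 3) F) (c ^ q) i j
      simp only [algebraMap_matrix_apply]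
      by_cases k : i = j
      · simp [k]
      · simp [k, Ne.symm k, zero_pow_q (F := F) (q := q)])
    have cK : Nat.card (KK t.1.1) = q ^ 6 := by
      rw [Module.natCard_eq_pow_finrank (K := F), fr, natCard_eq_sq (q := q), ← pow_mul]
    haveI := Fintype.ofFinite (KK t.1.1)
    have p6 : ∀ x : KK t.1.1, x ^ q ^ 6 = x := fun x => by
      rw [← cK, Nat.card_eq_fintype_card, FiniteField.pow_card]
    obtain ⟨p, _, ⟨n, hn⟩, hp, hq⟩ := FiniteField.card' F
    haveI := Fact.mk hp
    haveI : CharP (KK t.1.1) p := charP_of_injective_algebraMap (algebraMap F _).injective p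
    obtain ⟨k, -, hk⟩ := (Nat.dvd_prime_pow hp).1 (show q ∣ p ^ n from (hq.symm.trans hF.out) ▸ dvd_pow_self q two_ne_zero)
    let φ := iterateFrobenius (KK t.1.1) p (k * 3)
    have hφ : ∀ x, φ x = x ^ q ^ 3 := fun x => by rw [iterateFrobenius_def, pow_mul, ← hk]
    let ρ0 : KK t.1.1 →ₐ[F] KK t.1.1 :=
      { τ.comp φ with
        commutes' := fun c => by
          change τ (φ (algebraMap F _ c)) = _
          rw [hφ, ← map_pow, tF, pow_succ' q, pow_two q, pow_mul, pow_mul, pow_q_q, pow_q_q] }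
    let ρ := AlgEquiv.ofBijective ρ0 ρ0.bijective
    have hρ : ∀ x, ρ x = τ (x ^ q ^ 3) := fun x => congrArg τ (hφ x)
    have r2 : ρ ^ 2 = 1 := AlgEquiv.ext fun x => by
      rw [pow_two, AlgEquiv.mul_apply, hρ, hρ, ← map_pow, tt, ← pow_mul, ← pow_add, p6, AlgEquiv.one_apply]
    have r1 : ρ = 1 := by
      have := pow_card_eq_one' (x := ρ)
      rwa [cG, pow_succ, r2, one_mul] at this
    let ι : (centralizer {t} : Subgroup (SU 3 F q)) →* KK t.1.1 :=
      { toFun := fun g => ⟨g.1.1.1, mC.1 g.2⟩, map_one' := rfl, map_mul' := fun _ _ => rfl }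
    have hι : Function.Injective ι := fun a b e =>
      Subtype.ext (Subtype.ext (Subtype.ext (congrArg (fun x : KK t.1.1 => x.1) e)))
    haveI := isCyclic_of_injective_ringHom ι hι
    rw [← IsCyclic.exponent_eq_card]
    refine Monoid.exponent_dvd_of_forall_pow_eq_one fun g => hι ?_
    rw [map_pow, map_one]
    have u1 : ι g ^ q ^ 3 * ι g = 1 := by
      have h1 : τ (ι g ^ q ^ 3) = ι g := by rw [← hρ, r1, AlgEquiv.one_apply]
      rw [← tt (ι g ^ q ^ 3), h1]
      exact Subtype.ext (au g.1)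
    have u2 : ι g ^ (1 + q ^ 2 + (q ^ 2) ^ 2) = 1 := by
      have h1 := FiniteField.algebraMap_norm_eq_pow_sum F (KK t.1.1) (ι g)
      have h2 : Algebra.norm F (ι g) = 1 := by
        refine Eq.trans ?_ g.1.1.2
        rw [Algebra.norm_apply, ← LinearMap.det_conj _ e, ← LinearMap.det_toLin']
        congr 1
        refine LinearMap.ext fun w => ?_
        simp [he, ι]
      rw [h2, map_one, fr, natCard_eq_sq (q := q)] at h1
      simpa [Finset.sum_range_succ] using h1.symm
    obtain ⟨N, hN⟩ : ∃ N, q ^ 2 + 1 = N + q := ⟨q ^ 2 + 1 - q, by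
      have : q ≤ q ^ 2 := by nlinarith
      omega⟩
    rw [show q ^ 2 - q + 1 = N by
      have : q ≤ q ^ 2 := by nlinarith
      omega]
    rw [← pow_succ, show q ^ 3 + 1 = N * (q + 1) by nlinarith, pow_mul] at u1
    rw [show 1 + q ^ 2 + (q ^ 2) ^ 2 = N * ((q + 1) * q + 1) by
      zify at hN ⊢
      linear_combination (q ^ 2 + q + 1) * hN, pow_mul, pow_succ, pow_mul, u1, one_pow, one_mul] at u2
    exact u2
  · have hg' : NoEv g.1.1 := fun v c k => by_contra fun hv => hz (by
      have h1 := cx_ev hT (sub_mem (mC.1 hg) ((KK t.1.1).smul_mem (one_mem _) c)) hv (by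
        rw [sub_mulVec, k, smul_mulVec, one_mulVec, sub_self])
      rw [sub_eq_zero] at h1
      refine mem_center_iff.2 fun a => Subtype.ext (Subtype.ext ?_)
      change a.1.1 * g.1.1 = g.1.1 * a.1.1
      rw [h1, mul_smul_comm, smul_mul_assoc, mul_one, one_mul])
    have tg : t ∈ centralizer {g} := mem_centralizer_singleton_iff.2 (mem_centralizer_singleton_iff.1 hg).symm
    exact ⟨le_antisymm (fun a ha => mem_centralizer_singleton_iff.2 (cm hg' a ha t tg))
      fun a ha => mem_centralizer_singleton_iff.2 (cm hT a ha g hg), hg'⟩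
  · set N := normalizer ((centralizer {t} : Subgroup (SU 3 F q)) : Set (SU 3 F q))
    have cj : ∀ n : N, ∀ A ∈ KK t.1.1, n.1.1.1 * A * (n.1⁻¹).1.1 ∈ KK t.1.1 := fun n A hA => mem_KK.2 (by
      have h1 : n.1⁻¹ * t * n.1 ∈ centralizer {t} := by
        simpa using (mem_normalizer_iff.1 (inv_mem n.2) t).1 (mem_centralizer_singleton_iff.2 rfl)
      have h2 : (n.1⁻¹).1.1 * t.1.1 * n.1.1.1 * A = A * ((n.1⁻¹).1.1 * t.1.1 * n.1.1.1) := cx_comm hT (mC.1 h1) hA
      calc t.1.1 * (n.1.1.1 * A * (n.1⁻¹).1.1)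
          = n.1.1.1 * ((n.1⁻¹).1.1 * t.1.1 * n.1.1.1 * A) * (n.1⁻¹).1.1 := by
            simp only [← mul_assoc, iv, one_mul]
        _ = _ := by rw [h2]; simp only [mul_assoc, iv, mul_one])
    let f0 : N → (KK t.1.1 →ₐ[F] KK t.1.1) := fun n =>
      { toFun := fun A => ⟨_, cj n A.1 A.2⟩
        map_one' := Subtype.ext ((congrArg (· * (n.1⁻¹).1.1) (mul_one _)).trans (iv _))
        map_mul' := fun A B => Subtype.ext (by
          change _ * (A.1 * B.1) * _ = _ * A.1 * _ * (_ * B.1 * _)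
          simp only [mul_assoc]
          rw [← mul_assoc (n.1⁻¹).1.1, vi, one_mul])
        map_zero' := Subtype.ext (by simp)
        map_add' := fun A B => Subtype.ext (by simp [mul_add, add_mul])
        commutes' := fun c => Subtype.ext (by
          change _ * algebraMap F (Matrix (Fin 3) (Fin 3) F) c * _ = algebraMap F (Matrix (Fin 3) (Fin 3) F) c
          rw [← Algebra.commutes, mul_assoc, iv, mul_one]) }
    let f : N →* (KK t.1.1 ≃ₐ[F] KK t.1.1) := MonoidHom.mk' (fun n => AlgEquiv.ofBijective (f0 n) (f0 n).bijective)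
      fun a b => AlgEquiv.ext fun A => Subtype.ext (by
        change (a.1 * b.1).1.1 * A.1 * ((a.1 * b.1)⁻¹).1.1 = a.1.1.1 * (b.1.1.1 * A.1 * (b.1⁻¹).1.1) * (a.1⁻¹).1.1
        rw [_root_.mul_inv_rev]
        change a.1.1.1 * b.1.1.1 * A.1 * ((b.1⁻¹).1.1 * (a.1⁻¹).1.1) = _
        simp only [mul_assoc])
    have hk : f.ker = (centralizer {t}).subgroupOf N := by
      ext n
      rw [MonoidHom.mem_ker, mem_subgroupOf, mC]
      refine ⟨fun k => mem_KK.2 ?_, fun k => AlgEquiv.ext fun A => Subtype.ext ?_⟩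
      · have h1 : n.1.1.1 * t.1.1 * (n.1⁻¹).1.1 = t.1.1 :=
          congrArg Subtype.val (AlgEquiv.congr_fun k ⟨t.1.1, mem_KK.2 rfl⟩)
        calc t.1.1 * n.1.1.1 = n.1.1.1 * t.1.1 * (n.1⁻¹).1.1 * n.1.1.1 := by rw [h1]
          _ = _ := by rw [mul_assoc, vi, mul_one]
      · change n.1.1.1 * A.1 * (n.1⁻¹).1.1 = A.1
        rw [cx_comm hT k A.2, mul_assoc, iv, mul_one]
    rw [relIndex, ← hk, index_ker]
    exact (card_subgroup_dvd_card _).trans cG.dvd

end Cfsg.Agent.U3M
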