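import Cfsg.Agent.U3M.M
import Cfsg.Agent.U3M.Cx

/-! Minimal index of `PSU₃(q)`: the tori in the split model. -/

set_option autoImplicit false
set_option linter.unusedSectionVars false

namespace Cfsg.Agent.U3M

open Subgroup MulAction Cfsg.Agent.Pres Cfsg.Agent.CI Cfsg.Agent.Classical Matrix

theorem t2_mod {q N : ℕ} (h2 : 2 ≤ q) (hN : Nat.gcd 3 (q + 1) * N = q ^ 2 - q + 1) :
    ¬ 2 ∣ N ∧ ¬ 3 ∣ N ∧ ¬ 5 ∣ N := by
  have l : q ≤ q ^ 2 := by nlinarith
  have e : Nat.gcd 3 (q + 1) * N + q = q ^ 2 + 1 := by omega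
  refine ⟨?_, ?_, ?_⟩
  · rintro ⟨k, rfl⟩
    have := congrArg (Nat.cast : ℕ → ZMod 2) e
    push_cast at this
    generalize (q : ZMod 2) = x, (k : ZMod 2) = y, ((Nat.gcd 3 (q + 1) : ℕ) : ZMod 2) = z at this
    revert x y z; decide
  · rintro ⟨k, rfl⟩
    by_cases h : 3 ∣ q + 1
    · rw [Nat.gcd_eq_left h] at e
      have := congrArg (Nat.cast : ℕ → ZMod 9) e
      push_cast at this
      generalize (q : ZMod 9) = x, (k : ZMod 9) = y at this
      revert x y; decide
    · have := congrArg (Nat.cast : ℕ → ZMod 3) e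
      rw [← ZMod.natCast_eq_zero_iff] at h
      push_cast at this h
      generalize (q : ZMod 3) = x, (k : ZMod 3) = y, ((Nat.gcd 3 (q + 1) : ℕ) : ZMod 3) = z at this h
      revert x y z; decide
  · rintro ⟨k, rfl⟩
    have := congrArg (Nat.cast : ℕ → ZMod 5) e
    push_cast at this
    generalize (q : ZMod 5) = x, (k : ZMod 5) = y, ((Nat.gcd 3 (q + 1) : ℕ) : ZMod 5) = z at this
    revert x y z; decide

theorem cen_map {G G' : Type*} [Group G] [Group G'] (φ : G ≃* G') (t : G) :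
    (centralizer {t}).map φ.toMonoidHom = centralizer {φ t} := by
  ext g
  obtain ⟨g, rfl⟩ := φ.surjective g
  rw [mem_map_equiv, mem_centralizer_singleton_iff, mem_centralizer_singleton_iff, ← map_mul, ← map_mul,
    φ.injective.eq_iff, φ.symm_apply_apply]

variable {F : Type*} [Field F] {q : ℕ} [Fintype F] [hF : Fact (Fintype.card F = q ^ 2)]

theorem tor' :
    Tor (UG (Geom.frobq hF.out) 3) (UG (Geom.frobq hF.out) 3 ⧸ B3 (Geom.frobq hF.out)) (Nat.gcd 3 (q + 1))
      ((q ^ 2 - q + 1) / Nat.gcd 3 (q + 1)) := by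
  have q2 := e0_q hF.out
  have hN := gcd_mul q2
  obtain ⟨n2, n3, n5⟩ := t2_mod q2 hN
  obtain ⟨e, φ, -, he⟩ := exists_equiv_UG (F := F) (q := q) 3
  have k : ∀ t, (orderOf t).Prime → orderOf t ∣ (q ^ 2 - q + 1) / Nat.gcd 3 (q + 1) → _ := fun t h1 h2 =>
    torSU (φ t) (by rwa [φ.orderOf_eq]) (by rw [φ.orderOf_eq]; exact h2.trans (Dvd.intro_left _ hN))
      (by rw [φ.orderOf_eq]; exact fun e => n3 (by rwa [e] at h2))
  have m : ∀ t g, g ∈ centralizer {t} → φ g ∈ centralizer {φ t} := fun t g h => cen_map φ t ▸ mem_map_of_mem _ h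
  refine ⟨?_, ?_, fun r hr h => ?_, fun t h1 h2 a ha b hb => φ.injective ?_, fun t h1 h2 => ?_,
    fun t h1 h2 g hg hz => ?_, fun t h1 h2 => ?_⟩
  · rw [← card_map_of_injective (f := φ.toMonoidHom) φ.injective,
      show (center _).map φ.toMonoidHom = center _ from
        Subgroup.ext fun x => mem_map_equiv.trans (MulEquivClass.apply_mem_center_iff φ.symm),
      card_center_SU (by norm_num)]
  · exact ((Nat.Prime.coprime_iff_not_dvd Nat.prime_three).2 n3).coprime_dvd_left (Nat.gcd_dvd_left _ _)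
  · by_contra c
    push Not at c
    interval_cases r <;> first | contradiction | norm_num at hr
  · rw [map_mul, map_mul]
    exact (k t h1 h2).1 _ (m _ _ ha) _ (m _ _ hb)
  · rw [hN, ← card_map_of_injective (f := φ.toMonoidHom) φ.injective, cen_map]
    exact (k t h1 h2).2.1
  · obtain ⟨a1, a2⟩ := (k t h1 h2).2.2.1 _ (m _ _ hg) fun h => hz ((MulEquivClass.apply_mem_center_iff φ).1 h)
    refine ⟨map_injective (f := φ.toMonoidHom) φ.injective ?_, fun y hy => ?_⟩
    · simp only [cen_map, a1]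
    · obtain ⟨x, rfl⟩ := QuotientGroup.mk_surjective y
      have hb : x⁻¹ * (g * x) ∈ B3 _ := QuotientGroup.eq.1 hy.symm
      obtain ⟨b1, b2⟩ := mem_B3'.1 hb
      have e1 : (x⁻¹ * (g * x)).1.1 *ᵥ Pi.single 0 1 = (x⁻¹ * (g * x)).1.1 0 0 • Pi.single 0 1 := by
        generalize x⁻¹ * (g * x) = w at b1 b2
        ext i; fin_cases i <;> simp [b1, b2]
      have e2 : g.1.1 *ᵥ x.1.1 *ᵥ Pi.single 0 1 = (x⁻¹ * (g * x)).1.1 0 0 • x.1.1 *ᵥ Pi.single 0 1 := by
        rw [← mulVec_smul, ← e1, mulVec_mulVec, mulVec_mulVec, ← UG_mul, ← UG_mul, mul_inv_cancel_left]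
      have := a2 (e (x.1.1 *ᵥ Pi.single 0 1)) _ (by
        rw [← map_smul, ← e2]; exact he g _)
      rw [e.map_eq_zero_iff] at this
      have e3 := congrArg (fun v => (x⁻¹).1.1 *ᵥ v) this
      simp only [mulVec_mulVec, ← UG_mul, inv_mul_cancel, mulVec_zero] at e3
      simpa using congrFun e3 0
  · have := (k t h1 h2).2.2.2
    rwa [← cen_map, ← map_equiv_normalizer_eq, relIndex_map_map_of_injective _ _ φ.injective] at this

end Cfsg.Agent.U3M
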