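import Mathlib

/-! Minimal index of `PSU₃(q)`: the frame (helper25). -/

set_option autoImplicit false

namespace Cfsg.Agent.U3M

open Subgroup MulAction

/-- Facts on the anisotropic tori: centre of order `d`, tori of order dividing `d * N`. -/
structure Tor (G Ω : Type*) [Group G] [MulAction G Ω] (d N : ℕ) : Prop where
  cz : Nat.card (center G) = d
  cop : Nat.Coprime d N
  big : ∀ r : ℕ, r.Prime → r ∣ N → 7 ≤ r
  comm : ∀ t : G, (orderOf t).Prime → orderOf t ∣ N → ∀ a ∈ centralizer {t}, ∀ b ∈ centralizer {t}, a * b = b * a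
  card : ∀ t : G, (orderOf t).Prime → orderOf t ∣ N → Nat.card (centralizer {t} : Subgroup G) ∣ d * N
  ti : ∀ t : G, (orderOf t).Prime → orderOf t ∣ N → ∀ g ∈ centralizer {t}, g ∉ center G →
    centralizer {g} = centralizer {t} ∧ ∀ y : Ω, g • y ≠ y
  nrm : ∀ t : G, (orderOf t).Prime → orderOf t ∣ N →
    (centralizer {t} : Subgroup G).relIndex (normalizer ((centralizer {t} : Subgroup G) : Set G)) ∣ 3

/-- Number of elements of `H` with a fixed point. -/
noncomputable def nd {G : Type*} [Group G] (Ω : Type*) [MulAction G Ω] (H : Subgroup G) : ℕ :=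
  Set.ncard {h : G | h ∈ H ∧ ∃ y : Ω, h • y = y}

/-- Number of elements of `K` with at most `j` fixed points. -/
noncomputable def ef {G : Type*} [Group G] (Ω : Type*) [MulAction G Ω] (K : Subgroup G) (j : ℕ) : ℕ :=
  Set.ncard {h : G | h ∈ K ∧ Set.ncard {y : Ω | h • y = y} ≤ j}

end Cfsg.Agent.U3M
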