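import Cfsg.Agent.U3M.G0

/-! Minimal index of `PSU₃(q)`: the Borel subgroup, and elements with few fixed points. -/

set_option autoImplicit false
set_option linter.unusedSectionVars false

namespace Cfsg.Agent.U3M

open Subgroup MulAction Cfsg.Agent.Pres Cfsg.Agent.CI Matrix
open scoped commutatorElement

variable {F : Type*} [Field F] {q : ℕ} [Fintype F] [hF : Fact (Fintype.card F = q ^ 2)]
  {σ : F →+* F} [hσ : Fact (∀ x, σ (σ x) = x)]

theorem cardB' (hq : ∀ x, σ x = x ^ q) : Nat.card (B3 σ) = q ^ 3 * (q ^ 2 - 1) := by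
  classical
  have e : UU σ × Fˣ ≃ B3 σ := Equiv.ofBijective
    (fun x => ⟨x.1 * h3 σ x.2, mul_mem (UU_le x.1.2) (h3_mem _)⟩) ⟨by
      rintro ⟨u, l⟩ ⟨v, k⟩ h
      have h : (u : UG σ 3) * h3 σ l = v * h3 σ k := congrArg Subtype.val h
      have := congrArg ee h
      rw [ee_mul (h3_mem _), ee_mul (h3_mem _), ee_UU u.2, ee_UU v.2, ee_h, ee_h, one_mul, one_mul] at this
      obtain rfl : l = k := Units.ext this
      obtain rfl : u = v := Subtype.ext (mul_right_cancel h)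
      rfl, by
      rintro ⟨g, hg⟩
      obtain ⟨a, b, l, ok, rfl⟩ := mem_B3.1 hg
      exact ⟨(⟨_, a, b, ok, rfl⟩, l), rfl⟩⟩
  rw [← Nat.card_congr e, Nat.card_prod, card_UU hq, Nat.card_eq_fintype_card, Fintype.card_units, hF.out]

omit hF [Fintype F] in
theorem two' : IsMultiplyPretransitive (UG σ 3) (UG σ 3 ⧸ B3 σ) 2 := by
  have k : ∀ a b : UG σ 3 ⧸ B3 σ, a ≠ b → ∃ g : UG σ 3, g • ((1 : UG σ 3) : UG σ 3 ⧸ B3 σ) = a ∧
      g • ((t3 σ : UG σ 3) : UG σ 3 ⧸ B3 σ) = b := fun a b h => by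
    obtain ⟨g, rfl⟩ := QuotientGroup.mk_surjective a
    obtain e | ⟨u, hu, e⟩ := bruhat (g⁻¹ • b)
    · exact (h (by rw [inv_smul_eq_iff] at e; rw [e]; exact congrArg _ (mul_one g).symm)).elim
    · refine ⟨g * u, QuotientGroup.eq.2 (by simpa using UU_le hu), ?_⟩
      rw [inv_smul_eq_iff] at e
      rw [e, mul_smul]; rfl
  refine is_two_pretransitive_iff.2 fun {a b c d} h h' => ?_
  obtain ⟨g, g1, g2⟩ := k a b h
  obtain ⟨g', g1', g2'⟩ := k c d h'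
  exact ⟨g' * g⁻¹, by rw [← g1, mul_smul, inv_smul_smul, g1'], by rw [← g2, mul_smul, inv_smul_smul, g2']⟩

omit hF [Fintype F] hσ in
theorem ncard_roots (n : ℕ) (hn : 0 < n) : Set.ncard {x : F | x ^ n = 1} ≤ n := by
  classical
  have : {x : F | x ^ n = 1} = (Polynomial.nthRoots n (1 : F)).toFinset := by
    ext x; simp [Polynomial.mem_nthRoots hn]
  rw [this, Set.ncard_coe_finset]
  exact (Multiset.toFinset_card_le _).trans (Polynomial.card_nthRoots n 1)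

theorem half {G : Type*} [Group G] [Finite G] {A P : Set G} (z : G) (h : ∀ g ∈ A, g ∉ P → g * z ∈ P) :
    A.ncard ≤ 2 * P.ncard := by
  have h1 := Set.ncard_le_ncard_of_injOn (s := A \ P) (t := P) (· * z) (fun g hg => h g hg.1 hg.2)
    (fun _ _ _ _ e => mul_right_cancel e)
  have h2 := Set.ncard_le_ncard_sdiff_add_ncard A P
  omega

theorem low (hq : ∀ x, σ x = x ^ q) (q3 : 3 ≤ q) {K : Subgroup (UG σ 3)} (hK : K ≤ B3 σ)
    (hn : K.relIndex (B3 σ) ≤ q ^ 3) :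
    2 * Nat.card K < 7 * (ef (UG σ 3 ⧸ B3 σ) K 1 + ef (UG σ 3 ⧸ B3 σ) K 2) ∧
      (9 ≤ q → 6 * Nat.card K < 7 * (ef (UG σ 3 ⧸ B3 σ) K 1 + ef (UG σ 3 ⧸ B3 σ) K 2)) := by
  have c0 : q ^ 2 - 1 ≤ Nat.card K := by
    have := card_mul_index (K.subgroupOf (B3 σ))
    rw [cardB' hq, Nat.card_congr (subgroupOfEquivOfLe hK).toEquiv] at this
    refine Nat.le_of_mul_le_mul_left (c := q ^ 3) ?_ (by positivity)
    rw [← this, mul_comm]
    exact Nat.mul_le_mul_right _ hn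
  let K1 : Set (UG σ 3) := {g | g ∈ K ∧ ee g * σ (ee g) = 1}
  let P : Set (UG σ 3) := {g | g ∈ K1 ∧ Set.ncard {y : UG σ 3 ⧸ B3 σ | g • y = y} ≤ 1}
  have c1 : P.ncard ≤ ef (UG σ 3 ⧸ B3 σ) K 1 := Set.ncard_le_ncard fun g hg => ⟨hg.1.1, hg.2⟩
  have c2 : Nat.card K + P.ncard ≤ ef (UG σ 3 ⧸ B3 σ) K 2 + K1.ncard := by
    have h1 : ((K : Set (UG σ 3)) \ K1 ∪ P).ncard ≤ ef (UG σ 3 ⧸ B3 σ) K 2 := Set.ncard_le_ncard (by
      rintro g (hg | hg)
      · exact ⟨hg.1, fix2 (hK hg.1) fun e => hg.2 ⟨hg.1, e⟩⟩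
      · exact ⟨hg.1.1, hg.2.trans one_le_two⟩)
    rw [Set.ncard_union_eq (Set.disjoint_left.2 fun g h h' => h.2 h'.1)] at h1
    have h2 := Set.ncard_le_ncard_sdiff_add_ncard (K : Set (UG σ 3)) K1
    rw [← SetLike.coe_sort_coe, Nat.card_coe_set_eq]
    omega
  have q9 : 9 ≤ q ^ 2 := by nlinarith
  have mU : ∀ g ∈ K1, ∀ z ∈ K, z ∈ UU σ → g * z ∈ K1 := fun g hg z hz hu =>
    ⟨mul_mem hg.1 hz, by rw [ee_mul (UU_le hu), ee_UU hu, mul_one]; exact hg.2⟩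
  by_cases hz : ∃ z ∈ K, z ∈ ZZ σ ∧ z ≠ 1
  · obtain ⟨z, zK, zZ, z1⟩ := hz
    have := half (A := K1) (P := P) z fun g hg k =>
      ⟨mU g hg z zK (ZZ_le zZ), fixz (hK hg.1) hg.2 zZ z1 fun e => k ⟨hg, e⟩⟩
    omega
  push Not at hz
  by_cases hu : ∃ u ∈ K, u ∈ UU σ ∧ u ≠ 1
  · obtain ⟨u, uK, ⟨a, b, ok, rfl⟩, u1⟩ := hu
    have a0 : a ≠ 0 := by
      rintro rfl
      exact u1 (hz _ uK ⟨b, ok, rfl⟩)
    have six : ∀ g ∈ K1, ee g ^ 3 = 1 ∨ ee g ^ 3 = -1 := fun g hg => by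
      obtain ⟨c, d, l, ok', rfl⟩ := mem_B3.1 (hK hg.1)
      have h1 := hg.2
      rw [ee_uh ok'] at h1 ⊢
      have m := mul_mem (mul_mem hg.1 uK) (inv_mem hg.1)
      have e : u3 σ c d * h3 σ l * u3 σ a b * (u3 σ c d * h3 σ l)⁻¹ =
          u3 σ c d * (h3 σ l * u3 σ a b * (h3 σ l)⁻¹) * (u3 σ c d)⁻¹ := by group
      have o1 := ok.conj l
      have o2 := (ok'.add o1).add ok'.neg
      rw [e, h3_conj ok, CI.u3_inv ok', u3_mul ok' o1, u3_mul (ok'.add o1) ok'.neg] at m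
      have := hz _ (mul_mem (mul_mem (mul_mem uK m) (inv_mem uK)) (inv_mem m))
        (comm_mem_ZZ ⟨_, _, ok, rfl⟩ ⟨_, _, o2, rfl⟩)
      rw [← commutatorElement_def, commutatorElement_eq_one_iff_mul_comm, u3_mul ok o2, u3_mul o2 ok] at this
      have h2 := (u3_inj (ok.add o2) (o2.add ok) this).2
      have l0 := l.ne_zero
      have s0 : σ a ≠ 0 := by simpa
      have hs : σ l = (l : F)⁻¹ := eq_inv_of_mul_eq_one_right h1
      rw [show c + (l : F) ^ 2 / σ l * a + -c = (l : F) ^ 3 * a by rw [hs]; field_simp; ring] at h2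
      have h4 : a * σ ((l : F) ^ 3 * a) = (l : F) ^ 3 * a * σ a := by linear_combination -h2
      rw [map_mul, map_pow, hs] at h4
      have h3 : ((l : F) ^ 3) ^ 2 = 1 := by
        field_simp at h4
        linear_combination -h4
      exact sq_eq_one_iff.1 h3
    let K2 : Set (UG σ 3) := {g | g ∈ K1 ∧ ee g ^ 3 = 1}
    have d1 : K1.ncard ≤ 2 * K2.ncard := by
      by_cases k : ∃ w ∈ K1, ee w ^ 3 = -1
      · obtain ⟨w, hw, e⟩ := k
        refine half w fun g hg n => ⟨⟨mul_mem hg.1 hw.1, ?_⟩, ?_⟩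
        · rw [ee_mul (hK hw.1), map_mul, mul_mul_mul_comm, hg.2, hw.2, one_mul]
        · rw [ee_mul (hK hw.1), mul_pow, e, (six g hg).resolve_left fun e => n ⟨hg, e⟩]; ring
      · refine (Set.ncard_le_ncard (t := K2) fun g hg => ⟨hg, (six g hg).resolve_right fun e => k ⟨g, hg, e⟩⟩).trans ?_
        omega
    have uU : u3 σ a b ∈ UU σ := ⟨a, b, ok, rfl⟩
    have d2 : K2.ncard ≤ 2 * P.ncard := half (u3 σ a b) fun g hg n => by
      have m := mU g hg.1 _ uK uU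
      refine ⟨m, by_contra fun k => u1 ?_⟩
      have e := ee_mul (g := g) (UU_le uU)
      rw [ee_u ok, mul_one] at e
      obtain ⟨l, hl, e1⟩ := fixm (hK hg.1.1) hg.1.2 hg.2 fun e => n ⟨hg.1, e⟩
      obtain ⟨l', hl', e2⟩ := fixm (hK m.1) m.2 (e ▸ hg.2) k
      obtain rfl : l = l' := Units.ext (hl.trans (e.symm.trans hl'.symm))
      exact mul_eq_left.1 (e2.trans e1.symm)
    have d3 : (K2 \ P).ncard ≤ 3 := by
      refine (Set.ncard_le_ncard_of_injOn ee (fun g hg => hg.1.2) fun g hg g' hg' e => ?_).trans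
        (ncard_roots (F := F) 3 (by norm_num))
      obtain ⟨l, hl, e1⟩ := fixm (hK hg.1.1.1) hg.1.1.2 hg.1.2 fun e => hg.2 ⟨hg.1.1, e⟩
      obtain ⟨l', hl', e2⟩ := fixm (hK hg'.1.1.1) hg'.1.1.2 hg'.1.2 fun e => hg'.2 ⟨hg'.1.1, e⟩
      obtain rfl : l = l' := Units.ext (hl.trans (e.trans hl'.symm))
      exact e1.trans e2.symm
    have d4 := Set.ncard_le_ncard_sdiff_add_ncard K2 P
    have d5 : K1.ncard ≤ Nat.card K := by
      exact (Set.ncard_le_ncard (t := (K : Set (UG σ 3))) fun g hg => hg.1).trans_eq (Nat.card_coe_set_eq _).symm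
    refine ⟨by omega, fun h => ?_⟩
    have : 81 ≤ q ^ 2 := by nlinarith
    omega
  push Not at hu
  have d1 : K1.ncard ≤ q + 1 := by
    refine (Set.ncard_le_ncard_of_injOn ee (fun g hg => ?_) fun g hg g' hg' e => ?_).trans
      (ncard_roots (F := F) (q + 1) (by omega))
    · have := hg.2
      rw [hq] at this
      exact (pow_succ' _ _).trans this
    obtain ⟨c, d, l, o, rfl⟩ := mem_B3.1 (hK hg.1)
    obtain ⟨c', d', l', o', rfl⟩ := mem_B3.1 (hK hg'.1)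
    rw [ee_uh o, ee_uh o'] at e
    obtain rfl : l = l' := Units.ext e
    refine mul_inv_eq_one.1 (hu _ (mul_mem hg.1 (inv_mem hg'.1)) ?_)
    rw [_root_.mul_inv_rev, mul_assoc, mul_inv_cancel_left]
    exact mul_mem ⟨_, _, o, rfl⟩ (inv_mem ⟨_, _, o', rfl⟩)
  have : 3 * q ≤ q ^ 2 := by nlinarith
  refine ⟨by omega, fun h => ?_⟩
  have : 9 * q ≤ q ^ 2 := by nlinarith
  omega

end Cfsg.Agent.U3M
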