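import Cfsg.Agent.U3M.A
import Cfsg.Agent.CI.SUA

/-! Minimal index of `PSU₃(q)`: fixed points of elements of the Borel subgroup. -/

set_option autoImplicit false
set_option linter.unusedSectionVars false

namespace Cfsg.Agent.U3M

open Subgroup MulAction Cfsg.Agent.Pres Cfsg.Agent.CI Matrix

variable {F : Type*} [Field F] {σ : F →+* F} [hσ : Fact (∀ x, σ (σ x) = x)] {g g' : UG σ 3} {a b a' b' : F}

/-- The first diagonal entry. -/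
def ee (g : UG σ 3) : F := g.1.1 0 0

theorem ee_mul (h : g' ∈ B3 σ) : ee (g * g') = ee g * ee g' := by
  obtain ⟨h1, h2⟩ := mem_B3'.1 h
  simp [ee, UG_mul, Matrix.mul_apply, Fin.sum_univ_three, h1, h2]

theorem ee_u (h : Ok3 σ a b) : ee (u3 σ a b) = 1 := by simp [ee, u3_val h]

theorem ee_h (l : Fˣ) : ee (h3 σ l) = l := by simp [ee, h3_val]

theorem ee_uh (h : Ok3 σ a b) (l : Fˣ) : ee (u3 σ a b * h3 σ l) = l := by
  rw [ee_mul (h3_mem l), ee_u h, ee_h, one_mul]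

theorem u3_inj (h : Ok3 σ a b) (h' : Ok3 σ a' b') (e : u3 σ a b = u3 σ a' b') : a = a' ∧ b = b' := by
  have := congrArg (fun g : UG σ 3 => g.1.1) e
  simp only [u3_val h, u3_val h'] at this
  exact ⟨by simpa using congrFun (congrFun this 0) 1, by simpa using congrFun (congrFun this 0) 2⟩

theorem bruhat (y : UG σ 3 ⧸ B3 σ) :
    y = ((1 : UG σ 3) : UG σ 3 ⧸ B3 σ) ∨ ∃ u ∈ UU σ, y = ((u * t3 σ : UG σ 3) : UG σ 3 ⧸ B3 σ) := by
  obtain ⟨g, rfl⟩ := QuotientGroup.mk_surjective y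
  have e := mem_UG.1 g.2 0 0
  simp [Fin.sum_univ_three, Fin.rev] at e
  by_cases h : g.1.1 2 0 = 0
  · refine .inl (QuotientGroup.eq.2 ?_)
    rw [mul_one]
    exact inv_mem (mem_B3'.2 ⟨by simpa [h] using e, h⟩)
  have h' : σ (g.1.1 2 0) ≠ 0 := by simpa
  have ok : Ok3 σ (σ (g.1.1 1 0 / g.1.1 2 0)) (σ (g.1.1 0 0 / g.1.1 2 0)) := by
    simp [Ok3]; field_simp; linear_combination e
  have : t3 σ * (u3 σ (σ (g.1.1 1 0 / g.1.1 2 0)) (σ (g.1.1 0 0 / g.1.1 2 0)) * g) ∈ B3 σ := by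
    rw [mem_B3', UG_mul, UG_mul, u3_val ok, t3_val, eta_fin_three g.1.1, mul_fin_three, mul_fin_three]
    simp
    constructor <;> field_simp
    exacts [by ring, by linear_combination e]
  refine .inr ⟨_, inv_mem ⟨_, _, ok, rfl⟩, (QuotientGroup.eq.2 ?_).symm⟩
  rw [_root_.mul_inv_rev, inv_inv, inv_eq_of_mul_eq_one_right t3_sq, mul_assoc]
  exact this

theorem UU_le : UU σ ≤ B3 σ := by
  rintro _ ⟨a, b, -, rfl⟩
  exact u3_mem a b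

theorem ee_UU (h : g ∈ UU σ) : ee g = 1 := by
  obtain ⟨a, b, ok, rfl⟩ := h
  exact ee_u ok

theorem fixc (hg : g ∈ B3 σ) {y : UG σ 3 ⧸ B3 σ} (y1 : y ≠ ((1 : UG σ 3) : UG σ 3 ⧸ B3 σ)) (h : g • y = y) :
    ∃ u ∈ UU σ, ∃ l : Fˣ, y = ((u * t3 σ : UG σ 3) : UG σ 3 ⧸ B3 σ) ∧ (l : F) = ee g ∧ g = u * h3 σ l * u⁻¹ := by
  obtain ⟨u, hu, rfl⟩ := (bruhat y).resolve_left y1
  have k : (u * t3 σ)⁻¹ * (g * (u * t3 σ)) ∈ B3 σ := QuotientGroup.eq.1 h.symm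
  have m : u⁻¹ * g * u ∈ B3 σ := mul_mem (mul_mem (inv_mem (UU_le hu)) hg) (UU_le hu)
  obtain ⟨l, hl⟩ := eq_h3 m (by
    rw [_root_.mul_inv_rev, inv_eq_of_mul_eq_one_right t3_sq] at k
    simpa only [mul_assoc] using k)
  refine ⟨u, hu, l, rfl, ?_, by rw [← hl]; group⟩
  have := congrArg ee hl
  rw [ee_mul (UU_le hu), ee_mul hg, ee_UU hu, ee_UU (inv_mem hu), ee_h] at this
  simpa using this.symm

/-- Two conjugates of a diagonal element differing by a transvection. -/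
theorem key {u v z : UG σ 3} (hu : u ∈ UU σ) (hv : v ∈ UU σ) (hz : z ∈ ZZ σ) {l : Fˣ}
    (e : u * h3 σ l * u⁻¹ * z = v * h3 σ l * v⁻¹) :
    ((l : F) * σ l ≠ 1 → z = 1 → u = v) ∧ ((l : F) * σ l = 1 → z = 1) := by
  obtain ⟨a, b, ok, hw⟩ := mul_mem (inv_mem hv) hu
  have c : z * u = u * z := (commutatorElement_eq_one_iff_mul_comm.1 (ZZ_comm hu hz)).symm
  have c' : z * u3 σ a b = u3 σ a b * z :=
    (commutatorElement_eq_one_iff_mul_comm.1 (ZZ_comm ⟨a, b, ok, rfl⟩ hz)).symm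
  obtain ⟨γ, oz, rfl⟩ := hz
  have e1 : u3 σ a b * h3 σ l * u3 σ 0 γ = h3 σ l * u3 σ a b := by
    rw [← hw]
    calc v⁻¹ * u * h3 σ l * u3 σ 0 γ = v⁻¹ * (u * h3 σ l * u⁻¹) * (u * u3 σ 0 γ) := by group
      _ = v⁻¹ * (u * h3 σ l * u⁻¹ * u3 σ 0 γ) * u := by rw [← c]; group
      _ = _ := by rw [e]; group
  have e2 : u3 σ a b * (h3 σ l * u3 σ 0 γ * (h3 σ l)⁻¹) = h3 σ l * u3 σ a b * (h3 σ l)⁻¹ := by
    rw [← e1]; group
  rw [h3_conj oz, h3_conj ok, u3_mul ok (oz.conj l)] at e2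
  obtain ⟨-, e3⟩ := u3_inj (ok.add (oz.conj l)) (ok.conj l) e2
  simp only [mul_zero, map_zero, sub_zero] at e3
  refine ⟨fun h1 h2 => ?_, fun h1 => ?_⟩
  · obtain ⟨-, rfl⟩ := u3_inj oz (by simp [Ok3]) (h2.trans u3_zero.symm)
    obtain rfl : b = 0 := by
      by_contra k
      exact h1 (mul_right_cancel₀ k (by linear_combination -e3))
    obtain rfl : a = 0 := by simpa [Ok3] using ok
    rw [u3_zero] at hw
    exact (inv_mul_eq_one.1 hw).symm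
  · obtain rfl : γ = 0 := by rw [h1] at e3; linear_combination e3
    exact u3_zero

theorem fix2 (hg : g ∈ B3 σ) (h : ee g * σ (ee g) ≠ 1) : Set.ncard {y : UG σ 3 ⧸ B3 σ | g • y = y} ≤ 2 := by
  by_cases k : ∃ y : UG σ 3 ⧸ B3 σ, y ≠ ((1 : UG σ 3) : UG σ 3 ⧸ B3 σ) ∧ g • y = y
  · obtain ⟨y, y1, hy⟩ := k
    refine (Set.ncard_le_ncard (t := {((1 : UG σ 3) : UG σ 3 ⧸ B3 σ), y}) (fun x hx => ?_)).trans
      ((Set.ncard_insert_le _ _).trans (by simp))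
    by_cases x1 : x = ((1 : UG σ 3) : UG σ 3 ⧸ B3 σ)
    · exact .inl x1
    obtain ⟨u, hu, l, rfl, hl, e⟩ := fixc hg x1 hx
    obtain ⟨v, hv, l', rfl, hl', e'⟩ := fixc hg y1 hy
    obtain rfl : l = l' := Units.ext (hl.trans hl'.symm)
    rw [(key hu hv (one_mem _) (by rw [mul_one, ← e, ← e'])).1 (by rwa [hl]) rfl]
    exact .inr rfl
  · refine (Set.ncard_le_ncard (t := {((1 : UG σ 3) : UG σ 3 ⧸ B3 σ)}) (fun x hx => ?_)).trans (by simp)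
    by_contra x1
    exact k ⟨x, x1, hx⟩

theorem fix1 (h : ¬ Set.ncard {y : UG σ 3 ⧸ B3 σ | g • y = y} ≤ 1) (hg : g ∈ B3 σ) :
    ∃ u ∈ UU σ, ∃ l : Fˣ, (l : F) = ee g ∧ g = u * h3 σ l * u⁻¹ := by
  by_contra k
  refine h ((Set.ncard_le_ncard (t := {((1 : UG σ 3) : UG σ 3 ⧸ B3 σ)}) (fun x hx => ?_)).trans (by simp))
  by_contra x1
  obtain ⟨u, hu, l, -, hl, e⟩ := fixc hg x1 hx
  exact k ⟨u, hu, l, hl, e⟩

theorem fixz (hg : g ∈ B3 σ) (h : ee g * σ (ee g) = 1) {z : UG σ 3} (hz : z ∈ ZZ σ) (z1 : z ≠ 1)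
    (k : ¬ Set.ncard {y : UG σ 3 ⧸ B3 σ | g • y = y} ≤ 1) :
    Set.ncard {y : UG σ 3 ⧸ B3 σ | (g * z) • y = y} ≤ 1 := by
  by_contra k'
  have zB := UU_le (ZZ_le hz)
  obtain ⟨u, hu, l, hl, e⟩ := fix1 k hg
  obtain ⟨v, hv, l', hl', e'⟩ := fix1 k' (mul_mem hg zB)
  rw [ee_mul zB, ee_UU (ZZ_le hz), mul_one] at hl'
  obtain rfl : l = l' := Units.ext (hl.trans hl'.symm)
  exact z1 ((key hu hv hz (by rw [← e, ← e'])).2 (by rwa [hl]))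

theorem fixm (hg : g ∈ B3 σ) (h : ee g * σ (ee g) = 1) (h' : ee g ^ 3 = 1)
    (k : ¬ Set.ncard {y : UG σ 3 ⧸ B3 σ | g • y = y} ≤ 1) : ∃ l : Fˣ, (l : F) = ee g ∧ g = h3 σ l := by
  obtain ⟨_, ⟨a, b, ok, rfl⟩, l, hl, e⟩ := fix1 k hg
  refine ⟨l, hl, e.trans ?_⟩
  have := h3_conj ok l
  have s0 : σ l ≠ 0 := by simp
  rw [← hl] at h h'
  rw [h, show (l : F) ^ 2 / σ l = 1 by field_simp; linear_combination (σ l) * h' - (l : F) ^ 2 * h, one_mul, one_mul] at this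
  rw [mul_inv_eq_iff_eq_mul] at this ⊢
  exact this.symm

end Cfsg.Agent.U3M
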